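/-
Monomial matrices, and the elementary steps used in the maximality of the stabilisers of decompositions in `SL`.
-/
import Mathlib
import Cfsg.Agent.Lib.Classical.Sub.Rat
import Cfsg.Agent.Lib.Classical.Lin.Transvections
import Cfsg.Agent.Lib.Classical.Asch.NotSL

set_option autoImplicit false
set_option linter.unusedSectionVars false

namespace Cfsg.Agent.Lib.Classical.C2.Base

open scoped Matrix MatrixGroups
open Module Cfsg.Geo
open Cfsg.Agent.Lib.Classical.Geo.Basic Cfsg.Agent.Lib.Classical.Sub.Rat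

variable {ι : Type} [Fintype ι] [DecidableEq ι] {F : Type*} [Field F]

/-- The linear equivalence of a monomial matrix: `e j ↦ c j • e (σ j)`. -/
noncomputable def monoE (σ : Equiv.Perm ι) (c : ι → Fˣ) : (ι → F) ≃ₗ[F] (ι → F) where
  toFun x i := (c (σ⁻¹ i) : F) * x (σ⁻¹ i)
  invFun y j := (((c j)⁻¹ : Fˣ) : F) * y (σ j)
  map_add' x y := by
    ext i
    simp [mul_add]
  map_smul' a x := by
    ext i
    simp only [Pi.smul_apply, smul_eq_mul, RingHom.id_apply]
    ring
  left_inv x := by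
    ext j
    simp
  right_inv y := by
    ext i
    simp

/-- A monomial matrix. -/
noncomputable def mono (σ : Equiv.Perm ι) (c : ι → Fˣ) : GL ι F := glOfEquiv (monoE σ c)

theorem mono_mulVec (σ : Equiv.Perm ι) (c : ι → Fˣ) (x : ι → F) (i : ι) :
    ((mono σ c : GL ι F) : Matrix ι ι F) *ᵥ x = fun i => (c (σ⁻¹ i) : F) * x (σ⁻¹ i) := by
  rw [mono, glOfEquiv_mulVec]
  rfl

theorem mono_apply (σ : Equiv.Perm ι) (c : ι → Fˣ) (x : ι → F) (i : ι) :
    (((mono σ c : GL ι F) : Matrix ι ι F) *ᵥ x) i = (c (σ⁻¹ i) : F) * x (σ⁻¹ i) := by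
  rw [mono, glOfEquiv_mulVec]
  rfl

theorem mono_single (σ : Equiv.Perm ι) (c : ι → Fˣ) (j : ι) (a : F) :
    ((mono σ c : GL ι F) : Matrix ι ι F) *ᵥ (Pi.single j a) = Pi.single (σ j) ((c j : F) * a) := by
  ext i
  rw [mono_apply]
  by_cases h : i = σ j
  · subst h
    simp
  · have : σ⁻¹ i ≠ j := by
      intro h2
      apply h
      rw [← h2]
      simp
    rw [Pi.single_eq_of_ne h, Pi.single_eq_of_ne this, mul_zero]

theorem mono_inv (σ : Equiv.Perm ι) (c : ι → Fˣ) :
    (mono σ c : GL ι F)⁻¹ = mono σ⁻¹ (fun i => (c (σ⁻¹ i))⁻¹) := by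
  apply inv_eq_of_mul_eq_one_right
  apply gl_ext
  intro x
  rw [gl_mulVec_mul, Units.val_one, Matrix.one_mulVec]
  ext i
  rw [mono_apply, mono_apply]
  have h1 : σ (σ⁻¹ i) = i := σ.apply_symm_apply i
  rw [inv_inv, h1, Units.val_inv_eq_inv_val]
  have := (c (σ⁻¹ i)).ne_zero
  field_simp

theorem mono_mul (σ τ : Equiv.Perm ι) (c d : ι → Fˣ) :
    (mono σ c : GL ι F) * mono τ d = mono (σ * τ) (fun i => c (τ i) * d i) := by
  apply gl_ext
  intro x
  rw [gl_mulVec_mul]
  ext i
  rw [mono_apply, mono_apply, mono_apply]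
  simp [mul_assoc]

theorem mono_one (c : ι → Fˣ) (hc : ∀ i, c i = 1) : (mono 1 c : GL ι F) = 1 := by
  apply gl_ext
  intro x
  ext i
  rw [mono_apply]
  simp [hc]

theorem mono_det (σ : Equiv.Perm ι) (c : ι → Fˣ) :
    ((mono σ c : GL ι F) : Matrix ι ι F).det = ((Equiv.Perm.sign σ : ℤ) : F) * ∏ i, (c i : F) := by
  have h : ((mono σ c : GL ι F) : Matrix ι ι F) =
      (Matrix.diagonal (fun i => (c i : F))).submatrix (σ⁻¹ : Equiv.Perm ι) id := by
    ext i j
    have := congrFun (mono_mulVec σ c (Pi.single j 1) i) i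
    rw [Matrix.mulVec_single_one] at this
    rw [show ((mono σ c : GL ι F) : Matrix ι ι F) i j = (((mono σ c : GL ι F) : Matrix ι ι F).col j) i from rfl, this]
    rw [Matrix.submatrix_apply, Matrix.diagonal_apply]
    by_cases h2 : σ⁻¹ i = j
    · subst h2
      simp
    · rw [id, if_neg h2, Pi.single_eq_of_ne h2, mul_zero]
  rw [h, Matrix.det_permute, Matrix.det_diagonal]
  simp

/-- Being monomial. -/
def IsMono (g : GL ι F) : Prop := ∃ (σ : Equiv.Perm ι) (c : ι → Fˣ), g = mono σ c

theorem IsMono.mul {g h : GL ι F} (hg : IsMono g) (hh : IsMono h) : IsMono (g * h) := by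
  obtain ⟨σ, c, rfl⟩ := hg
  obtain ⟨τ, d, rfl⟩ := hh
  exact ⟨_, _, mono_mul _ _ _ _⟩

theorem IsMono.inv {g : GL ι F} (hg : IsMono g) : IsMono g⁻¹ := by
  obtain ⟨σ, c, rfl⟩ := hg
  exact ⟨_, _, mono_inv _ _⟩

theorem isMono_one : IsMono (1 : GL ι F) := ⟨1, fun _ => 1, (mono_one _ (fun _ => rfl)).symm⟩

/-- The image of a coordinate vector under a monomial matrix. -/
theorem IsMono.single {g : GL ι F} (hg : IsMono g) (j : ι) :
    ∃ (i : ι) (κ : F), κ ≠ 0 ∧ (g : Matrix ι ι F) *ᵥ (Pi.single j 1) = κ • (Pi.single i 1 : ι → F) := by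
  obtain ⟨σ, c, rfl⟩ := hg
  refine ⟨σ j, c j, (c j).ne_zero, ?_⟩
  rw [mono_single]
  ext i
  by_cases h : i = σ j
  · subst h
    simp
  · simp [h]

/-- A criterion for being monomial. -/
theorem isMono_of_columns {g : GL ι F}
    (h : ∀ j, ∃ (i : ι) (κ : F), κ ≠ 0 ∧ (g : Matrix ι ι F) *ᵥ (Pi.single j 1) = κ • (Pi.single i 1 : ι → F)) :
    IsMono g := by
  classical
  choose s κ hκ hs using h
  have hinj : Function.Injective s := by
    intro j j' hjj
    by_contra hne
    have h1 : (g : Matrix ι ι F) *ᵥ (κ j' • (Pi.single j 1 : ι → F) - κ j • (Pi.single j' 1 : ι → F)) = 0 := by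
      rw [Matrix.mulVec_sub, Matrix.mulVec_smul, Matrix.mulVec_smul, hs, hs, hjj, smul_smul, smul_smul, mul_comm,
        sub_self]
    have h2 := mulVec_injective g (h1.trans (Matrix.mulVec_zero _).symm)
    have h3 := congrFun h2 j
    simp [hne, hκ j'] at h3
  let σ : Equiv.Perm ι := Equiv.ofBijective s (Finite.injective_iff_bijective.1 hinj)
  refine ⟨σ, fun j => Units.mk0 (κ j) (hκ j), ?_⟩
  apply gl_ext
  intro x
  have hx : x = ∑ j, x j • (Pi.single j 1 : ι → F) := by
    ext i
    simp [Finset.sum_apply, Pi.single_apply]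
  rw [hx, Matrix.mulVec_sum, Matrix.mulVec_sum]
  refine Finset.sum_congr rfl fun j _ => ?_
  rw [Matrix.mulVec_smul, Matrix.mulVec_smul, hs, mono_single]
  congr 1
  ext i
  by_cases h : i = s j
  · subst h
    simp [σ]
  · have : i ≠ σ j := h
    simp [h, this]

/-- A non-monomial element has a column with two non-zero entries. -/
theorem exists_column_two {g : GL ι F} (h : ¬ IsMono g) :
    ∃ j a b, a ≠ b ∧ ((g : Matrix ι ι F) *ᵥ (Pi.single j 1)) a ≠ 0 ∧ ((g : Matrix ι ι F) *ᵥ (Pi.single j 1)) b ≠ 0 := by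
  by_contra hcon
  push Not at hcon
  apply h
  apply isMono_of_columns
  intro j
  set y := (g : Matrix ι ι F) *ᵥ (Pi.single j 1) with hy
  have hy0 : y ≠ 0 := by
    intro h0
    have := mulVec_injective g (h0.trans (Matrix.mulVec_zero _).symm)
    have h3 := congrFun this j
    simp at h3
  obtain ⟨i, hi⟩ := Function.ne_iff.1 hy0
  refine ⟨i, y i, hi, ?_⟩
  ext k
  by_cases hk : k = i
  · subst hk
    simp
  · have := hcon j k i hk
    by_cases h5 : y k = 0
    · simp [hk, h5]
    · exact absurd (this h5) hi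

/-! ### The diagonal elements. -/

/-- The diagonal matrix with `λ` at `a`, and `1` elsewhere. -/
noncomputable def dAt (a : ι) (l : Fˣ) : GL ι F := mono 1 (fun i => if i = a then l else 1)

theorem dAt_apply (a : ι) (l : Fˣ) (x : ι → F) (i : ι) :
    (((dAt a l : GL ι F) : Matrix ι ι F) *ᵥ x) i = if i = a then (l : F) * x a else x i := by
  rw [dAt, mono_apply]
  by_cases h : i = a
  · subst h
    simp
  · simp [h]

theorem dAt_mulVec (a : ι) (l : Fˣ) (x : ι → F) :
    ((dAt a l : GL ι F) : Matrix ι ι F) *ᵥ x = x + (((l : F) - 1) * x a) • (Pi.single a 1 : ι → F) := by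
  ext i
  rw [dAt_apply]
  by_cases h : i = a
  · subst h
    simp
    ring
  · simp [h]

theorem dAt_det (a : ι) (l : Fˣ) : ((dAt a l : GL ι F) : Matrix ι ι F).det = l := by
  rw [dAt, mono_det]
  have : ∀ i, ((if i = a then l else 1 : Fˣ) : F) = if i = a then (l : F) else 1 := by
    intro i
    split_ifs <;> simp
  simp [this, Finset.prod_ite_eq']

theorem dAt_inv (a : ι) (l : Fˣ) : (dAt a l : GL ι F)⁻¹ = dAt a l⁻¹ := by
  apply inv_eq_of_mul_eq_one_right
  apply gl_ext
  intro x
  rw [gl_mulVec_mul]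
  ext i
  rw [dAt_apply, dAt_apply, dAt_apply]
  by_cases h : i = a
  · subst h
    simp
  · simp [h]

theorem dAt_isMono (a : ι) (l : Fˣ) : IsMono (dAt a l : GL ι F) := ⟨_, _, rfl⟩

/-- The diagonal element of determinant one. -/
noncomputable def dg (a b : ι) (l : Fˣ) : GL ι F := dAt a l * dAt b l⁻¹

theorem dg_det (a b : ι) (l : Fˣ) : ((dg a b l : GL ι F) : Matrix ι ι F).det = 1 := by
  rw [dg, Units.val_mul, Matrix.det_mul, dAt_det, dAt_det]
  simp

theorem dg_mem_specialLinear (a b : ι) (l : Fˣ) : (dg a b l : GL ι F) ∈ specialLinear ι F := by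
  rw [mem_specialLinear_iff, dg_det]

theorem dg_isMono (a b : ι) (l : Fˣ) : IsMono (dg a b l : GL ι F) := (dAt_isMono a l).mul (dAt_isMono b _)

theorem dg_mulVec {a b : ι} (hab : a ≠ b) (l : Fˣ) (x : ι → F) :
    ((dg a b l : GL ι F) : Matrix ι ι F) *ᵥ x =
      x + (((l : F) - 1) * x a) • (Pi.single a 1 : ι → F) + ((((l⁻¹ : Fˣ) : F) - 1) * x b) • (Pi.single b 1 : ι → F) := by
  rw [dg, gl_mulVec_mul, dAt_mulVec, dAt_mulVec]
  simp only [Pi.add_apply, Pi.smul_apply, smul_eq_mul, Pi.single_eq_same, Pi.single_eq_of_ne hab, mul_zero, add_zero]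
  abel

theorem dg_apply {a b : ι} (hab : a ≠ b) (l : Fˣ) (x : ι → F) (i : ι) :
    (((dg a b l : GL ι F) : Matrix ι ι F) *ᵥ x) i =
      if i = a then (l : F) * x a else if i = b then ((l⁻¹ : Fˣ) : F) * x b else x i := by
  rw [dg, gl_mulVec_mul]
  simp only [dAt_apply]
  by_cases h : i = a
  · subst h
    simp [hab]
  · by_cases h2 : i = b
    · subst h2
      simp [h]
    · simp [h, h2]

theorem dg_inv {a b : ι} (hab : a ≠ b) (l : Fˣ) : (dg a b l : GL ι F)⁻¹ = dg a b l⁻¹ := by
  apply inv_eq_of_mul_eq_one_right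
  apply gl_ext
  intro x
  rw [gl_mulVec_mul, Units.val_one, Matrix.one_mulVec]
  ext i
  simp only [dg_apply hab]
  by_cases h : i = a
  · subst h
    simp [hab, hab.symm]
  · by_cases h2 : i = b
    · subst h2
      simp [hab, hab.symm]
    · simp [h, h2]

/-! ### Differences of transvections. -/

variable {K : Subgroup (GL ι F)}

/-- If `g` fixes the covector then the centre may be replaced by `g v - v`. -/
theorem sub_center {v : ι → F} {χ : Dual F (ι → F)} (h : InM K v χ) {g : GL ι F} (hg : g ∈ K)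
    (hχ : ∀ x, χ (((g⁻¹ : GL ι F) : Matrix ι ι F) *ᵥ x) = χ x) :
    InM K ((g : Matrix ι ι F) *ᵥ v - v) χ := by
  have h1 := h.conj hg
  have h2 : InM K ((g : Matrix ι ι F) *ᵥ v) χ := by
    refine InM.iff rfl ?_ h1
    apply LinearMap.ext
    intro x
    rw [LinearMap.comp_apply, Matrix.toLin'_apply, hχ]
  have := h2.add h.neg
  rwa [← sub_eq_add_neg] at this

/-- If `g` fixes the centre then the covector may be replaced by the difference. -/
theorem sub_dual {v : ι → F} {χ χ' : Dual F (ι → F)} (h : InM K v χ) {g : GL ι F} (hg : g ∈ K)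
    (hv : (g : Matrix ι ι F) *ᵥ v = v) (hχ : ∀ x, χ' x = χ (((g⁻¹ : GL ι F) : Matrix ι ι F) *ᵥ x) - χ x) :
    InM K v χ' := by
  have h1 := h.conj hg
  rw [hv] at h1
  have h2 : InM K v (-χ) := by
    obtain ⟨a, b⟩ := h
    have hn := InM.neg (M := K) ⟨a, b⟩
    have := InM.scale (c := -1) (v := v) (f := χ) (M := K) (by
      simpa using hn)
    refine InM.iff rfl ?_ this
    apply LinearMap.ext
    intro x
    simp
  refine InM.iff rfl ?_ (h1.add_dual h2)
  apply LinearMap.ext
  intro x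
  rw [hχ]
  simp [sub_eq_add_neg]

/-- Coordinates of a covector. -/
theorem covector_apply (φ : Dual F (ι → F)) (x : ι → F) : φ x = ∑ k, x k * φ (Pi.single k 1) := by
  conv_lhs => rw [show x = ∑ k, x k • (Pi.single k 1 : ι → F) by
    ext i
    simp [Finset.sum_apply, Pi.single_apply]]
  rw [map_sum]
  simp

/-- A covector which vanishes on all coordinate vectors vanishes. -/
theorem covector_ext {φ : Dual F (ι → F)} (h : ∀ k, φ (Pi.single k 1) = 0) : φ = 0 := by
  apply LinearMap.ext
  intro x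
  rw [covector_apply]
  simp [h]

/-! ### The elementary transvections. -/

/-- The elementary transvections generate `SL`. -/
theorem sl_le_of_all (h2 : 2 ≤ Fintype.card ι)
    (hall : ∀ i j : ι, i ≠ j → ∀ c : F, InM K (c • (Pi.single i 1 : ι → F)) (LinearMap.proj j)) :
    specialLinear ι F ≤ K := by
  classical
  haveI : Nontrivial ι := Fintype.one_lt_card_iff_nontrivial.1 (by omega)
  rw [← Cfsg.Agent.Lib.Classical.Asch.NotSL.range_toGL]
  rintro _ ⟨s, rfl⟩
  refine Cfsg.Agent.Lib.Classical.Lin.Transvections.transvection_induction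
    (fun s => Matrix.SpecialLinearGroup.toGL s ∈ K) ?_ (fun A B hA hB => ?_) s
  · intro i j hij c
    obtain ⟨h3, h4⟩ := hall i j hij c
    convert h4 using 1
    apply gl_ext
    intro x
    rw [tv_mulVec]
    change (Matrix.transvection i j c) *ᵥ x = _
    rw [Matrix.transvection, Matrix.add_mulVec, Matrix.one_mulVec, Matrix.single_mulVec]
    congr 1
    ext k
    by_cases hk : k = i
    · subst hk
      simp [mul_comm]
    · simp [hk]
  · rw [map_mul]
    exact K.mul_mem hA hB

/-- Two pairs of distinct points are related by a permutation. -/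
theorem exists_perm_two {a b i j : ι} (hab : a ≠ b) (hij : i ≠ j) :
    ∃ σ : Equiv.Perm ι, σ a = i ∧ σ b = j := by
  classical
  let s := Equiv.swap a i
  let τ := Equiv.swap (s b) j
  refine ⟨τ * s, ?_, ?_⟩
  · have h1 : s a = i := by simp [s]
    have h2 : s b ≠ i := by
      rw [← h1]
      exact fun h => hab (s.injective h).symm
    simp only [Equiv.Perm.mul_apply, h1, τ]
    exact Equiv.swap_apply_of_ne_of_ne h2.symm hij
  · simp [τ]

/-- From one elementary transvection to all of them, in the presence of the monomial matrices of determinant one. -/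
theorem elem_all (hK : ∀ (σ : Equiv.Perm ι) (c : ι → Fˣ), ((mono σ c : GL ι F) : Matrix ι ι F).det = 1 → mono σ c ∈ K)
    {a b : ι} (hab : a ≠ b) {f : ι} (hfa : f ≠ a) (hfb : f ≠ b) {t : F} (ht : t ≠ 0)
    (h : InM K (t • (Pi.single a 1 : ι → F)) (LinearMap.proj b)) :
    ∀ i j : ι, i ≠ j → ∀ c : F, InM K (c • (Pi.single i 1 : ι → F)) (LinearMap.proj j) := by
  classical
  intro i j hij c
  by_cases hc : c = 0
  · subst hc
    rw [zero_smul]
    exact InM.zero _
  obtain ⟨σ, h1, h2⟩ := exists_perm_two hab hij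
  let r : Fˣ := Units.mk0 (c / t) (div_ne_zero hc ht)
  let s : Fˣ := Units.mk0 (((Equiv.Perm.sign σ : ℤ) : F)) (by
    rcases Int.units_eq_one_or (Equiv.Perm.sign σ) with h | h <;> rw [h] <;> simp)
  let d : ι → Fˣ := fun k => if k = a then r else if k = f then (s * r)⁻¹ else 1
  have hdet : ((mono σ d : GL ι F) : Matrix ι ι F).det = 1 := by
    rw [mono_det]
    have h3 : ∏ k, (d k : F) = (r : F) * (((s * r)⁻¹ : Fˣ) : F) := by
      rw [← Finset.prod_subset (Finset.subset_univ {a, f})]
      · rw [Finset.prod_pair hfa.symm]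
        simp [d, hfa]
      · intro k _ hk
        simp only [Finset.mem_insert, Finset.mem_singleton, not_or] at hk
        simp [d, hk.1, hk.2]
    rw [h3]
    have h4 : ((Equiv.Perm.sign σ : ℤ) : F) = (s : F) := rfl
    rw [h4, ← Units.val_mul, ← Units.val_mul]
    simp
  have h5 := h.conj (hK σ d hdet)
  refine InM.iff ?_ ?_ h5
  · rw [Matrix.mulVec_smul, mono_single, ← h1]
    ext k
    by_cases hk : k = σ a
    · subst hk
      simp [d, r]
      field_simp
    · simp [hk]
  · apply LinearMap.ext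
    intro x
    rw [LinearMap.comp_apply, Matrix.toLin'_apply, mono_inv]
    simp only [LinearMap.proj_apply]
    have h6 : σ⁻¹ j = b := by
      rw [← h2]
      exact σ.symm_apply_apply b
    rw [mono_apply, inv_inv, h2, h6]
    simp [d, hab.symm, hfb.symm]

end Cfsg.Agent.Lib.Classical.C2.Base
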