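/-
Finishing steps: from a sparse transvection to the elementary ones.
-/
import Mathlib
import Cfsg.Agent.Lib.Classical.C2.Base

set_option autoImplicit false
set_option linter.unusedSectionVars false

namespace Cfsg.Agent.Lib.Classical.C2.Finish

open scoped Matrix MatrixGroups
open Module Cfsg.Geo
open Cfsg.Agent.Lib.Classical.Geo.Basic Cfsg.Agent.Lib.Classical.Sub.Rat
open Cfsg.Agent.Lib.Classical.C2.Base

variable {ι : Type} [Fintype ι] [DecidableEq ι] {F : Type*} [Field F] {K : Subgroup (GL ι F)}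

/-- An element outside a small set. -/
theorem exists_notMem_finset {α : Type*} [Fintype α] [DecidableEq α] (s : Finset α) (h : s.card < Fintype.card α) :
    ∃ x, x ∉ s := by
  by_contra hcon
  push Not at hcon
  have : s = Finset.univ := Finset.eq_univ_iff_forall.2 hcon
  rw [this, Finset.card_univ] at h
  exact lt_irrefl _ h

/-- `K` contains an elementary transvection. -/
def Elem (K : Subgroup (GL ι F)) : Prop :=
  ∃ (a b : ι) (t : F), a ≠ b ∧ t ≠ 0 ∧ InM K (t • (Pi.single a 1 : ι → F)) (LinearMap.proj b)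

/-- The monomial matrices of determinant one lie in `K`. -/
def HasMono (K : Subgroup (GL ι F)) : Prop :=
  ∀ (σ : Equiv.Perm ι) (c : ι → Fˣ), ((mono σ c : GL ι F) : Matrix ι ι F).det = 1 → mono σ c ∈ K

theorem HasMono.dg (h : HasMono K) (a b : ι) (l : Fˣ) : Base.dg a b l ∈ K := by
  obtain ⟨σ, c, hc⟩ := dg_isMono (F := F) a b l
  have h2 := dg_det (F := F) a b l
  rw [hc] at h2 ⊢
  exact h _ _ h2

/-- The end of the proof. -/
theorem sl_le_of_elem (hK : HasMono K) (h3 : 3 ≤ Fintype.card ι) (h : Elem K) : specialLinear ι F ≤ K := by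
  obtain ⟨a, b, t, hab, ht, h1⟩ := h
  obtain ⟨f, hf⟩ := exists_notMem_finset ({a, b} : Finset ι) (by
    have := Finset.card_le_two (a := a) (b := b)
    omega)
  simp only [Finset.mem_insert, Finset.mem_singleton, not_or] at hf
  exact sl_le_of_all (by omega) (elem_all hK hab hf.1 hf.2 ht h1)

theorem covector_dg (φ : Dual F (ι → F)) {a b : ι} (hab : a ≠ b) (l : Fˣ) (x : ι → F) :
    φ (((Base.dg a b l : GL ι F) : Matrix ι ι F) *ᵥ x) =
      φ x + ((l : F) - 1) * x a * φ (Pi.single a 1) + (((l⁻¹ : Fˣ) : F) - 1) * x b * φ (Pi.single b 1) := by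
  rw [dg_mulVec hab]
  simp only [map_add, map_smul, smul_eq_mul]

theorem exists_ne_one [Fintype F] (h3 : 3 ≤ Fintype.card F) : ∃ l : Fˣ, l ≠ 1 := by
  classical
  obtain ⟨x, hx⟩ := exists_notMem_finset ({0, 1} : Finset F) (by
    have := Finset.card_le_two (a := (0 : F)) (b := 1)
    omega)
  simp only [Finset.mem_insert, Finset.mem_singleton, not_or] at hx
  refine ⟨Units.mk0 x hx.1, ?_⟩
  intro h
  apply hx.2
  have := congrArg Units.val h
  simpa using this

theorem inv_sub_one_ne {l : Fˣ} (hl : l ≠ 1) : (((l⁻¹ : Fˣ) : F) - 1) ≠ 0 := by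
  intro h
  apply hl
  have h2 : ((l⁻¹ : Fˣ) : F) = 1 := by linear_combination h
  have h3 : (l⁻¹ : Fˣ) = 1 := Units.ext h2
  simpa using h3

theorem sub_one_ne {l : Fˣ} (hl : l ≠ 1) : ((l : F) - 1) ≠ 0 := by
  intro h
  apply hl
  have h2 : (l : F) = 1 := by linear_combination h
  exact Units.ext h2


/-! ### The monomial swaps. -/

/-- The monomial swap: `e a ↦ α • e b`, `e b ↦ α⁻¹ • e a`. -/
noncomputable def sw (a b : ι) (α : Fˣ) : GL ι F :=
  mono (Equiv.swap a b) (fun i => if i = a then α else if i = b then α⁻¹ else 1)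

theorem sw_isMono (a b : ι) (α : Fˣ) : IsMono (sw a b α : GL ι F) := ⟨_, _, rfl⟩

theorem sw_apply {a b : ι} (hab : a ≠ b) (α : Fˣ) (x : ι → F) (i : ι) :
    (((sw a b α : GL ι F) : Matrix ι ι F) *ᵥ x) i =
      if i = a then ((α⁻¹ : Fˣ) : F) * x b else if i = b then (α : F) * x a else x i := by
  rw [sw, mono_apply, Equiv.swap_inv]
  by_cases h : i = a
  · subst h
    simp [hab.symm]
  · by_cases h2 : i = b
    · subst h2
      simp [h]
    · rw [Equiv.swap_apply_of_ne_of_ne h h2]
      simp [h, h2]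

theorem sw_mulVec {a b : ι} (hab : a ≠ b) (α : Fˣ) (x : ι → F) :
    ((sw a b α : GL ι F) : Matrix ι ι F) *ᵥ x =
      x + (((α⁻¹ : Fˣ) : F) * x b - x a) • (Pi.single a 1 : ι → F) + ((α : F) * x a - x b) • (Pi.single b 1 : ι → F) := by
  ext i
  rw [sw_apply hab]
  by_cases h : i = a
  · subst h
    simp [hab]
  · by_cases h2 : i = b
    · subst h2
      simp [h]
    · simp [h, h2]

theorem sw_det {a b : ι} (hab : a ≠ b) (α : Fˣ) : ((sw a b α : GL ι F) : Matrix ι ι F).det = -1 := by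
  rw [sw, mono_det, Equiv.Perm.sign_swap hab]
  have h3 : ∏ k, (((if k = a then α else if k = b then α⁻¹ else 1 : Fˣ)) : F) = (α : F) * ((α⁻¹ : Fˣ) : F) := by
    rw [← Finset.prod_subset (Finset.subset_univ {a, b})]
    · rw [Finset.prod_pair hab]
      simp [hab.symm]
    · intro k _ hk
      simp only [Finset.mem_insert, Finset.mem_singleton, not_or] at hk
      simp [hk.1, hk.2]
  rw [h3]
  simp

theorem sw_inv {a b : ι} (hab : a ≠ b) (α : Fˣ) : (sw a b α : GL ι F)⁻¹ = sw a b α := by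
  apply inv_eq_of_mul_eq_one_right
  apply gl_ext
  intro x
  rw [gl_mulVec_mul, Units.val_one, Matrix.one_mulVec]
  ext i
  simp only [sw_apply hab]
  by_cases h : i = a
  · subst h
    simp [hab, hab.symm]
  · by_cases h2 : i = b
    · subst h2
      simp [hab, hab.symm]
    · simp [h, h2]

/-- **F3.** A covector with two non-zero coordinates, and a centre with a non-zero coordinate elsewhere. -/
theorem finish_sparse (hK : HasMono K) (h6 : 6 ≤ Fintype.card ι) {l : Fˣ} (hl : l ≠ 1)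
    {v : ι → F} {χ : Dual F (ι → F)} {α β : F} {c d e : ι} (hcd : c ≠ d) (hec : e ≠ c) (hed : e ≠ d)
    (hα : α ≠ 0) (hve : v e ≠ 0) (hχ : ∀ x, χ x = α * x c + β * x d) (h : InM K v χ) : Elem K := by
  classical
  obtain ⟨e₁, he₁⟩ := exists_notMem_finset ({c, d, e} : Finset ι) (by
    have := Finset.card_le_three (a := c) (b := d) (c := e)
    omega)
  simp only [Finset.mem_insert, Finset.mem_singleton, not_or] at he₁
  obtain ⟨e₂, he₂⟩ := exists_notMem_finset ({c, d, e, e₁} : Finset ι) (by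
    have := Finset.card_le_four (a := c) (b := d) (c := e) (d := e₁)
    omega)
  simp only [Finset.mem_insert, Finset.mem_singleton, not_or] at he₂
  have hl1 := sub_one_ne (F := F) hl
  have hl2 := inv_sub_one_ne (F := F) hl
  -- the first step
  have hee₁ : e ≠ e₁ := fun h => he₁.2.2 h.symm
  have h1 : InM K (((Base.dg e e₁ l : GL ι F) : Matrix ι ι F) *ᵥ v - v) χ := by
    refine sub_center h (hK.dg _ _ _) ?_
    intro x
    rw [hχ, hχ, dg_inv hee₁]
    simp only [dg_apply hee₁]
    simp [hec.symm, hed.symm, Ne.symm he₁.1, Ne.symm he₁.2.1]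
  set v₁ := ((Base.dg e e₁ l : GL ι F) : Matrix ι ι F) *ᵥ v - v with hv₁
  have hv₁e : v₁ e = ((l : F) - 1) * v e := by
    rw [hv₁, Pi.sub_apply, dg_apply hee₁]
    simp
    ring
  have hv₁e₂ : v₁ e₂ = 0 := by
    rw [hv₁, Pi.sub_apply, dg_apply hee₁]
    simp [he₂.2.2.1, he₂.2.2.2]
  have hee₂ : e ≠ e₂ := fun h => he₂.2.2.1 h.symm
  have h2 : InM K (((Base.dg e e₂ l : GL ι F) : Matrix ι ι F) *ᵥ v₁ - v₁) χ := by
    refine sub_center h1 (hK.dg _ _ _) ?_
    intro x
    rw [hχ, hχ, dg_inv hee₂]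
    simp only [dg_apply hee₂]
    simp [hec.symm, hed.symm, Ne.symm he₂.1, Ne.symm he₂.2.1]
  set κ : F := ((l : F) - 1) * v₁ e with hκ
  have hκ0 : κ ≠ 0 := by
    rw [hκ, hv₁e]
    exact mul_ne_zero hl1 (mul_ne_zero hl1 hve)
  have h3 : InM K (κ • (Pi.single e 1 : ι → F)) χ := by
    refine InM.iff ?_ rfl h2
    rw [dg_mulVec hee₂, hv₁e₂]
    simp only [mul_zero, zero_smul, add_zero, add_sub_cancel_left, hκ]
  -- the third step
  have hce₁ : c ≠ e₁ := fun h => he₁.1 h.symm
  have h4 : InM K (κ • (Pi.single e 1 : ι → F)) ((α * (((l⁻¹ : Fˣ) : F) - 1)) • LinearMap.proj c) := by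
    refine sub_dual h3 (hK.dg c e₁ l) ?_ ?_
    · ext i
      rw [Matrix.mulVec_smul, Pi.smul_apply, Pi.smul_apply, dg_apply hce₁]
      by_cases h5 : i = c
      · subst h5
        simp [hec.symm]
      · by_cases h6 : i = e₁
        · subst h6
          simp [hee₁, h5]
        · simp [h5, h6]
    · intro x
      rw [hχ, hχ, dg_inv hce₁]
      simp only [dg_apply hce₁]
      simp [hcd.symm, Ne.symm he₁.2.1]
      ring
  have h5 := h4.unscale
  refine ⟨e, c, (α * (((l⁻¹ : Fˣ) : F) - 1)) * κ, hec, mul_ne_zero (mul_ne_zero hα hl2) hκ0, ?_⟩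
  rwa [smul_smul] at h5

/-- **F4.** A coordinate centre. -/
theorem finish_center (hK : HasMono K) (h6 : 6 ≤ Fintype.card ι) {l : Fˣ} (hl : l ≠ 1)
    {c : ι} {κ : F} (hκ : κ ≠ 0) {φ : Dual F (ι → F)} (hφ : φ ≠ 0)
    (h : InM K (κ • (Pi.single c 1 : ι → F)) φ) : Elem K := by
  classical
  obtain ⟨b, hb⟩ : ∃ b, φ (Pi.single b 1) ≠ 0 := by
    by_contra hcon
    push Not at hcon
    exact hφ (covector_ext hcon)
  have hbc : b ≠ c := by
    rintro rfl
    apply hb
    have := h.1
    rw [map_smul, smul_eq_mul] at this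
    exact (mul_eq_zero.1 this).resolve_left hκ
  obtain ⟨f, hf⟩ := exists_notMem_finset ({b, c} : Finset ι) (by
    have := Finset.card_le_two (a := b) (b := c)
    omega)
  simp only [Finset.mem_insert, Finset.mem_singleton, not_or] at hf
  have hbf : b ≠ f := fun h => hf.1 h.symm
  have h1 : InM K (κ • (Pi.single c 1 : ι → F)) ((((l⁻¹ : Fˣ) : F) - 1) • (φ (Pi.single b 1) • LinearMap.proj b) +
      (((l : F) - 1) • (φ (Pi.single f 1)) • LinearMap.proj f)) := by
    refine sub_dual h (hK.dg b f l) ?_ ?_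
    · ext i
      rw [Matrix.mulVec_smul, Pi.smul_apply, Pi.smul_apply, dg_apply hbf]
      by_cases h5 : i = b
      · subst h5
        simp [hbc, hbf]
      · by_cases h6 : i = f
        · subst h6
          simp [hf.2, hbf.symm]
        · simp [h5, h6]
    · intro x
      rw [dg_inv hbf, covector_dg _ hbf]
      simp
      ring
  refine finish_sparse hK h6 hl hbf hbc.symm (fun h => hf.2 h.symm) (mul_ne_zero (inv_sub_one_ne (F := F) hl) hb)
    (v := κ • (Pi.single c 1 : ι → F)) (e := c) (β := ((l : F) - 1) * φ (Pi.single f 1)) (by simpa using hκ) ?_ h1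
  intro x
  simp
  ring

end Cfsg.Agent.Lib.Classical.C2.Finish
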