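/-
The monomial group in even characteristic.
-/
import Mathlib
import Cfsg.Agent.Lib.Classical.C2.Finish

set_option autoImplicit false
set_option linter.unusedSectionVars false

namespace Cfsg.Agent.Lib.Classical.C2.Even

open scoped Matrix MatrixGroups
open Module Cfsg.Geo
open Cfsg.Agent.Lib.Classical.Geo.Basic Cfsg.Agent.Lib.Classical.Sub.Rat
open Cfsg.Agent.Lib.Classical.C2.Base Cfsg.Agent.Lib.Classical.C2.Finish

variable {ι : Type} [Fintype ι] [DecidableEq ι] {F : Type*} [Field F] {K : Subgroup (GL ι F)}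

/-- In characteristic two the monomial swaps are transvections. -/
theorem inM_sw (h2 : (2 : F) = 0) (hK : HasMono K) {a b : ι} (hab : a ≠ b) (α : Fˣ) :
    InM K ((Pi.single a 1 : ι → F) + (α : F) • (Pi.single b 1 : ι → F))
      (LinearMap.proj a + ((α⁻¹ : Fˣ) : F) • LinearMap.proj b) := by
  have h0 : ((LinearMap.proj a + ((α⁻¹ : Fˣ) : F) • LinearMap.proj b : Dual F (ι → F)))
      ((Pi.single a 1 : ι → F) + (α : F) • (Pi.single b 1 : ι → F)) = 0 := by
    simp [hab, hab.symm]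
    linear_combination h2
  refine ⟨h0, ?_⟩
  have h1 : tv _ _ h0 = sw a b α := by
    apply gl_ext
    intro x
    rw [tv_mulVec]
    ext i
    rw [sw_apply hab]
    have h3 := α.ne_zero
    by_cases h : i = a
    · subst h
      simp [hab, hab.symm]
      linear_combination (x i) * h2
    · by_cases h4 : i = b
      · subst h4
        simp [hab, hab.symm, h]
        field_simp
        linear_combination (x i) * h2
      · simp [h, h4]
  rw [h1]
  have h5 := sw_det (F := F) hab α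
  rw [sw] at h5 ⊢
  refine hK _ _ ?_
  rw [h5]
  linear_combination - h2

theorem even_m1 (h2 : (2 : F) = 0) (hK : HasMono K) (h6 : 6 ≤ Fintype.card ι) {l : Fˣ} (hl : l ≠ 1)
    {A : ι → F} {Ψ : Dual F (ι → F)} (hI : InM K A Ψ) {c d e : ι} (hcd : c ≠ d) (hec : e ≠ c) (hed : e ≠ d)
    (hAc : A c ≠ 0) (hAd : A d ≠ 0) (hAe : A e ≠ 0) (hz : A c * Ψ (Pi.single c 1) ≠ A d * Ψ (Pi.single d 1)) :
    Elem K := by
  let β : Fˣ := Units.mk0 (A d / A c) (div_ne_zero hAd hAc)
  have hπ := inM_sw h2 hK hcd β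
  have hβ : (β : F) = A d / A c := rfl
  have h0 : (LinearMap.proj c + ((β⁻¹ : Fˣ) : F) • LinearMap.proj d : Dual F (ι → F)) A = 0 := by
    simp only [LinearMap.add_apply, LinearMap.smul_apply, LinearMap.proj_apply, smul_eq_mul, Units.val_inv_eq_inv_val,
      hβ]
    field_simp
    linear_combination (A c) * h2
  have h1 := InM.comm hI hπ h0
  refine finish_sparse hK h6 hl hcd hec hed (α := 1) (β := ((β⁻¹ : Fˣ) : F)) one_ne_zero ?_ (fun x => ?_) h1
  · rw [Pi.smul_apply, smul_eq_mul]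
    refine mul_ne_zero ?_ hAe
    rw [map_add, map_smul, smul_eq_mul, hβ]
    intro h
    apply hz
    field_simp at h
    linear_combination h - (A d * Ψ (Pi.single d 1)) * h2
  · simp

theorem even_m2 (h2 : (2 : F) = 0) [Fintype F] (hq : 8 ≤ Fintype.card F) (hK : HasMono K) (h6 : 6 ≤ Fintype.card ι)
    {l : Fˣ} (hl : l ≠ 1)
    {A : ι → F} {Ψ : Dual F (ι → F)} (hI : InM K A Ψ) {c d e : ι} (hcd : c ≠ d) (hAc : A c = 0) (hAd : A d = 0)
    (hAe : A e ≠ 0) (hz : Ψ (Pi.single c 1) ≠ 0) : Elem K := by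
  classical
  obtain ⟨b, hb⟩ := exists_notMem_finset ({0, - Ψ (Pi.single c 1) / Ψ (Pi.single d 1)} : Finset F) (by
    have := Finset.card_le_two (a := (0 : F)) (b := - Ψ (Pi.single c 1) / Ψ (Pi.single d 1))
    omega)
  simp only [Finset.mem_insert, Finset.mem_singleton, not_or] at hb
  let β : Fˣ := Units.mk0 b hb.1
  have hπ := inM_sw h2 hK hcd β
  have h0 : (LinearMap.proj c + ((β⁻¹ : Fˣ) : F) • LinearMap.proj d : Dual F (ι → F)) A = 0 := by
    simp [hAc, hAd]
  have h1 := InM.comm hI hπ h0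
  have hec : e ≠ c := by
    rintro rfl
    exact hAe hAc
  have hed : e ≠ d := by
    rintro rfl
    exact hAe hAd
  refine finish_sparse hK h6 hl hcd hec hed (α := 1) (β := ((β⁻¹ : Fˣ) : F)) one_ne_zero ?_ (fun x => ?_) h1
  · rw [Pi.smul_apply, smul_eq_mul]
    refine mul_ne_zero ?_ hAe
    rw [map_add, map_smul, smul_eq_mul]
    change Ψ (Pi.single c 1) + b * Ψ (Pi.single d 1) ≠ 0
    by_cases h5 : Ψ (Pi.single d 1) = 0
    · simpa [h5] using hz
    · intro h
      apply hb.2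
      field_simp
      linear_combination h
  · simp

/-- The twisted commutator. -/
theorem even_m3 (h2 : (2 : F) = 0) (hK : HasMono K) (h6 : 6 ≤ Fintype.card ι) {l : Fˣ} (hl : l ≠ 1)
    {A : ι → F} {Ψ : Dual F (ι → F)} (hI : InM K A Ψ) (u : ι → Fˣ) (hu : ∏ k, (u k : F) = 1)
    (hS1 : ∑ k, (u k : F) * (A k * Ψ (Pi.single k 1)) = 0)
    (hS2 : ∑ k, (((u k)⁻¹ : Fˣ) : F) * (A k * Ψ (Pi.single k 1)) ≠ 0)
    {p q e : ι} (hpq : p ≠ q) (hep : e ≠ p) (heq : e ≠ q) (hAp : A p ≠ 0) (hAq : A q ≠ 0) (hAe : A e ≠ 0)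
    (hz : A p * Ψ (Pi.single p 1) = A q * Ψ (Pi.single q 1)) (hz0 : A p * Ψ (Pi.single p 1) ≠ 0)
    (hupq : u p ≠ u q) : Elem K := by
  let d : GL ι F := mono 1 (fun k => (u k)⁻¹)
  have hdet : ((d : GL ι F) : Matrix ι ι F).det = 1 := by
    rw [mono_det]
    simp only [Equiv.Perm.sign_one, Units.val_one, Int.cast_one, one_mul, Units.val_inv_eq_inv_val]
    rw [Finset.prod_inv_distrib, hu, inv_one]
  have hdK : d ∈ K := hK _ _ hdet
  have hdi : ∀ x : ι → F, ((d⁻¹ : GL ι F) : Matrix ι ι F) *ᵥ x = fun k => (u k : F) * x k := by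
    intro x
    ext k
    rw [mono_inv, mono_apply]
    simp
  have hd : ∀ x : ι → F, ((d : GL ι F) : Matrix ι ι F) *ᵥ x = fun k => (((u k)⁻¹ : Fˣ) : F) * x k := by
    intro x
    ext k
    rw [mono_apply]
    simp
  set Ψ' : Dual F (ι → F) := Ψ ∘ₗ Matrix.toLin' ((d⁻¹ : GL ι F) : Matrix ι ι F) with hΨ'
  have hΨ'x : ∀ x, Ψ' x = ∑ k, (u k : F) * x k * Ψ (Pi.single k 1) := by
    intro x
    rw [hΨ', LinearMap.comp_apply, Matrix.toLin'_apply, hdi, covector_apply]
  have h3 := hI.conj hdK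
  have h4 : Ψ' A = 0 := by
    rw [hΨ'x, ← hS1]
    refine Finset.sum_congr rfl fun k _ => ?_
    ring
  have h5 := InM.comm hI h3 h4
  have h7 : Ψ (((d : GL ι F) : Matrix ι ι F) *ᵥ A) ≠ 0 := by
    rw [hd, covector_apply]
    intro h
    apply hS2
    rw [← h]
    refine Finset.sum_congr rfl fun k _ => ?_
    ring
  set κ := Ψ (((d : GL ι F) : Matrix ι ι F) *ᵥ A) with hκ
  have h8 : ∀ k, Ψ' (Pi.single k 1) = (u k : F) * Ψ (Pi.single k 1) := by
    intro k
    rw [hΨ', LinearMap.comp_apply, Matrix.toLin'_apply, hdi]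
    have : (fun k_1 => (u k_1 : F) * (Pi.single k 1 : ι → F) k_1) = (u k : F) • (Pi.single k 1 : ι → F) := by
      ext i
      by_cases h : i = k
      · subst h
        simp
      · simp [h]
    rw [this, map_smul, smul_eq_mul]
  refine even_m1 h2 hK h6 hl h5 hpq hep heq (by simpa [hκ] using ⟨h7, hAp⟩) (by simpa [hκ] using ⟨h7, hAq⟩)
    (by simpa [hκ] using ⟨h7, hAe⟩) ?_
  rw [h8, h8, Pi.smul_apply, Pi.smul_apply, smul_eq_mul, smul_eq_mul]
  intro h
  apply hupq
  apply Units.ext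
  have h9 : (κ * (A p * Ψ (Pi.single p 1))) * ((u p : F) - (u q : F)) = 0 := by
    linear_combination h - (κ * (u q : F)) * hz
  have h10 := (mul_eq_zero.1 h9).resolve_left (mul_ne_zero h7 hz0)
  linear_combination h10

/-- The function with prescribed values at five distinct points. -/
def five (q₁ q₂ q₃ q₄ q₅ : ι) (u₁ u₂ u₃ u₄ u₅ : Fˣ) : ι → Fˣ := fun k =>
  if k = q₁ then u₁ else if k = q₂ then u₂ else if k = q₃ then u₃ else if k = q₄ then u₄ else if k = q₅ then u₅ else 1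

theorem sum_five (q₁ q₂ q₃ q₄ q₅ : ι) (u₁ u₂ u₃ u₄ u₅ : Fˣ) (h12 : q₁ ≠ q₂) (h13 : q₁ ≠ q₃) (h14 : q₁ ≠ q₄)
    (h15 : q₁ ≠ q₅) (h23 : q₂ ≠ q₃) (h24 : q₂ ≠ q₄) (h25 : q₂ ≠ q₅) (h34 : q₃ ≠ q₄) (h35 : q₃ ≠ q₅) (h45 : q₄ ≠ q₅)
    (ν : Fˣ → F) (g : ι → F) :
    ∑ k, ν (five q₁ q₂ q₃ q₄ q₅ u₁ u₂ u₃ u₄ u₅ k) * g k =
      ∑ k, ν 1 * g k + ((ν u₁ - ν 1) * g q₁ + (ν u₂ - ν 1) * g q₂ + (ν u₃ - ν 1) * g q₃ + (ν u₄ - ν 1) * g q₄ +
        (ν u₅ - ν 1) * g q₅) := by
  have h1 : ∑ k, (ν (five q₁ q₂ q₃ q₄ q₅ u₁ u₂ u₃ u₄ u₅ k) - ν 1) * g k =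
      (ν u₁ - ν 1) * g q₁ + (ν u₂ - ν 1) * g q₂ + (ν u₃ - ν 1) * g q₃ + (ν u₄ - ν 1) * g q₄ +
        (ν u₅ - ν 1) * g q₅ := by
    rw [← Finset.sum_subset (Finset.subset_univ {q₁, q₂, q₃, q₄, q₅})]
    · rw [Finset.sum_insert (by simp [h12, h13, h14, h15]), Finset.sum_insert (by simp [h23, h24, h25]),
        Finset.sum_insert (by simp [h34, h35]), Finset.sum_insert (by simp [h45]), Finset.sum_singleton]
      simp only [five, if_true, h12.symm, h13.symm, h14.symm, h15.symm, h23.symm, h24.symm, h25.symm, h34.symm,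
        h35.symm, h45.symm, if_false]
      ring
    · intro k _ hk
      simp only [Finset.mem_insert, Finset.mem_singleton, not_or] at hk
      simp [five, hk.1, hk.2.1, hk.2.2.1, hk.2.2.2.1, hk.2.2.2.2]
  rw [← h1, ← Finset.sum_add_distrib]
  refine Finset.sum_congr rfl fun k _ => ?_
  ring

theorem prod_five (q₁ q₂ q₃ q₄ q₅ : ι) (u₁ u₂ u₃ u₄ u₅ : Fˣ) (h12 : q₁ ≠ q₂) (h13 : q₁ ≠ q₃) (h14 : q₁ ≠ q₄)
    (h15 : q₁ ≠ q₅) (h23 : q₂ ≠ q₃) (h24 : q₂ ≠ q₄) (h25 : q₂ ≠ q₅) (h34 : q₃ ≠ q₄) (h35 : q₃ ≠ q₅) (h45 : q₄ ≠ q₅) :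
    ∏ k, ((five q₁ q₂ q₃ q₄ q₅ u₁ u₂ u₃ u₄ u₅ k : Fˣ) : F) = (u₁ : F) * u₂ * u₃ * u₄ * u₅ := by
  rw [← Finset.prod_subset (Finset.subset_univ {q₁, q₂, q₃, q₄, q₅})]
  · rw [Finset.prod_insert (by simp [h12, h13, h14, h15]), Finset.prod_insert (by simp [h23, h24, h25]),
      Finset.prod_insert (by simp [h34, h35]), Finset.prod_insert (by simp [h45]), Finset.prod_singleton]
    simp only [five, if_true, h12.symm, h13.symm, h14.symm, h15.symm, h23.symm, h24.symm, h25.symm, h34.symm,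
      h35.symm, h45.symm, if_false]
    ring
  · intro k _ hk
    simp only [Finset.mem_insert, Finset.mem_singleton, not_or] at hk
    simp [five, hk.1, hk.2.1, hk.2.2.1, hk.2.2.2.1, hk.2.2.2.2]

/-- A row of an invertible matrix is non-zero. -/
theorem exists_row_ne (x : GL ι F) (i : ι) : ∃ k, ((x : Matrix ι ι F) *ᵥ (Pi.single k 1)) i ≠ 0 := by
  by_contra hcon
  push Not at hcon
  have h1 : ((x : Matrix ι ι F) *ᵥ (((x⁻¹ : GL ι F) : Matrix ι ι F) *ᵥ (Pi.single i 1))) i = 1 := by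
    rw [mulVec_inv_mulVec]
    simp
  have h2 : ∀ v : ι → F, ((x : Matrix ι ι F) *ᵥ v) i = 0 := by
    intro v
    have h3 := covector_apply (LinearMap.proj i ∘ₗ Matrix.toLin' (x : Matrix ι ι F)) v
    simp only [LinearMap.comp_apply, Matrix.toLin'_apply, LinearMap.proj_apply] at h3
    rw [h3]
    simp [hcon]
  rw [h2] at h1
  exact zero_ne_one h1

/-- A vector with three non-zero coordinates in the image of a sum of two coordinate vectors. -/
theorem exists_three [Fintype F] (hq : 5 ≤ Fintype.card F) (h3 : 3 ≤ Fintype.card ι) {x : GL ι F} (hx : ¬ IsMono x) :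
    ∃ (a b : ι) (α : Fˣ) (k₁ k₂ k₃ : ι), a ≠ b ∧ k₁ ≠ k₂ ∧ k₁ ≠ k₃ ∧ k₂ ≠ k₃ ∧
      ((x : Matrix ι ι F) *ᵥ ((Pi.single a 1 : ι → F) + (α : F) • (Pi.single b 1 : ι → F))) k₁ ≠ 0 ∧
      ((x : Matrix ι ι F) *ᵥ ((Pi.single a 1 : ι → F) + (α : F) • (Pi.single b 1 : ι → F))) k₂ ≠ 0 ∧
      ((x : Matrix ι ι F) *ᵥ ((Pi.single a 1 : ι → F) + (α : F) • (Pi.single b 1 : ι → F))) k₃ ≠ 0 := by
  classical
  obtain ⟨j, i₁, i₂, hne, h1, h2⟩ := exists_column_two hx
  obtain ⟨i₃, hi₃⟩ := exists_notMem_finset ({i₁, i₂} : Finset ι) (by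
    have := Finset.card_le_two (a := i₁) (b := i₂)
    omega)
  simp only [Finset.mem_insert, Finset.mem_singleton, not_or] at hi₃
  obtain ⟨b₀, hb₀⟩ := exists_row_ne x i₃
  set y := (x : Matrix ι ι F) *ᵥ (Pi.single j 1) with hy
  obtain ⟨b, hbj, hb⟩ : ∃ b, j ≠ b ∧ (y i₃ ≠ 0 ∨ ((x : Matrix ι ι F) *ᵥ (Pi.single b 1)) i₃ ≠ 0) := by
    by_cases hb₁ : b₀ = j
    · subst hb₁
      obtain ⟨b₂, hb₂⟩ := exists_notMem_finset ({b₀} : Finset ι) (by
        simp
        omega)
      simp only [Finset.mem_singleton] at hb₂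
      exact ⟨b₂, Ne.symm hb₂, Or.inl hb₀⟩
    · exact ⟨b₀, Ne.symm hb₁, Or.inr hb₀⟩
  set y' := (x : Matrix ι ι F) *ᵥ (Pi.single b 1) with hy'
  obtain ⟨a, ha⟩ := exists_notMem_finset ({0, - y i₁ / y' i₁, - y i₂ / y' i₂, - y i₃ / y' i₃} : Finset F) (by
    have := Finset.card_le_four (a := (0 : F)) (b := - y i₁ / y' i₁) (c := - y i₂ / y' i₂) (d := - y i₃ / y' i₃)
    omega)
  simp only [Finset.mem_insert, Finset.mem_singleton, not_or] at ha
  have key : ∀ k, (y k ≠ 0 ∨ y' k ≠ 0) → a ≠ - y k / y' k → y k + a * y' k ≠ 0 := by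
    intro k h4 h5 h6
    by_cases h7 : y' k = 0
    · rw [h7, mul_zero, add_zero] at h6
      rcases h4 with h4 | h4
      · exact h4 h6
      · exact h4 h7
    · apply h5
      field_simp
      linear_combination h6
  refine ⟨j, b, Units.mk0 a ha.1, i₁, i₂, i₃, hbj, hne, Ne.symm hi₃.1, Ne.symm hi₃.2, ?_, ?_, ?_⟩
  · rw [Matrix.mulVec_add, Matrix.mulVec_smul]
    exact key _ (Or.inl h1) ha.2.1
  · rw [Matrix.mulVec_add, Matrix.mulVec_smul]
    exact key _ (Or.inl h2) ha.2.2.1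
  · rw [Matrix.mulVec_add, Matrix.mulVec_smul]
    exact key _ hb ha.2.2.2

/-- The main statement in even characteristic. -/
theorem even_main [Fintype F] (h2 : (2 : F) = 0) (hq : 8 ≤ Fintype.card F) (h13 : 13 ≤ Fintype.card ι) (hK : HasMono K)
    {x : GL ι F} (hxK : x ∈ K) (hx : ¬ IsMono x) : Elem K := by
  classical
  obtain ⟨l, hl⟩ := exists_ne_one (F := F) (by omega)
  have h6 : 6 ≤ Fintype.card ι := by omega
  obtain ⟨a, b, α, k₁, k₂, k₃, hab, h12, h13', h23, hk₁, hk₂, hk₃⟩ := exists_three (F := F) (by omega) (by omega) hx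
  set A := (x : Matrix ι ι F) *ᵥ ((Pi.single a 1 : ι → F) + (α : F) • (Pi.single b 1 : ι → F)) with hA
  have hI : InM K A ((LinearMap.proj a + ((α⁻¹ : Fˣ) : F) • LinearMap.proj b : Dual F (ι → F)) ∘ₗ
      Matrix.toLin' ((x⁻¹ : GL ι F) : Matrix ι ι F)) := (inM_sw h2 hK hab α).conj hxK
  set Ψ : Dual F (ι → F) := (LinearMap.proj a + ((α⁻¹ : Fˣ) : F) • LinearMap.proj b : Dual F (ι → F)) ∘ₗ
      Matrix.toLin' ((x⁻¹ : GL ι F) : Matrix ι ι F) with hΨ
  have hΨ0 : Ψ ≠ 0 := by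
    intro h
    have h3 := LinearMap.congr_fun h ((x : Matrix ι ι F) *ᵥ (Pi.single a 1))
    rw [hΨ, LinearMap.comp_apply, Matrix.toLin'_apply, inv_mulVec_mulVec] at h3
    simp [hab] at h3
  have hsum : ∑ k, A k * Ψ (Pi.single k 1) = 0 := by
    rw [← covector_apply]
    exact hI.1
  by_cases hM1 : ∃ c d, c ≠ d ∧ A c ≠ 0 ∧ A d ≠ 0 ∧ A c * Ψ (Pi.single c 1) ≠ A d * Ψ (Pi.single d 1)
  · obtain ⟨c, d, hcd, hAc, hAd, hz⟩ := hM1
    obtain ⟨e, hAe, hec, hed⟩ : ∃ e, A e ≠ 0 ∧ e ≠ c ∧ e ≠ d := by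
      by_contra hcon
      push Not at hcon
      have a1 := hcon k₁ hk₁
      have a2 := hcon k₂ hk₂
      have a3 := hcon k₃ hk₃
      by_cases b1 : k₁ = c <;> by_cases b2 : k₂ = c <;> by_cases b3 : k₃ = c
      all_goals first
        | exact h12 (b1.trans b2.symm)
        | exact h13' (b1.trans b3.symm)
        | exact h23 (b2.trans b3.symm)
        | exact h12 ((a1 b1).trans (a2 b2).symm)
        | exact h13' ((a1 b1).trans (a3 b3).symm)
        | exact h23 ((a2 b2).trans (a3 b3).symm)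
    exact even_m1 h2 hK h6 hl hI hcd hec hed hAc hAd hAe hz
  push Not at hM1
  set ζ := A k₁ * Ψ (Pi.single k₁ 1) with hζ
  have hzk : ∀ k, A k ≠ 0 → A k * Ψ (Pi.single k 1) = ζ := by
    intro k hk
    by_cases h1 : k = k₁
    · rw [h1]
    · exact hM1 k k₁ h1 hk hk₁
  by_cases hζ0 : ζ = 0
  · obtain ⟨c, hc⟩ : ∃ c, Ψ (Pi.single c 1) ≠ 0 := by
      by_contra hcon
      push Not at hcon
      exact hΨ0 (covector_ext hcon)
    have hAc : A c = 0 := by
      by_contra h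
      have := hzk c h
      rw [hζ0] at this
      exact (mul_ne_zero h hc) this
    by_cases hd : ∃ d, d ≠ c ∧ A d = 0
    · obtain ⟨d, hdc, hAd⟩ := hd
      exact even_m2 h2 hq hK h6 hl hI (Ne.symm hdc) hAc hAd hk₁ hc
    · push Not at hd
      have hk₁c : k₁ ≠ c := by
        rintro rfl
        exact hk₁ hAc
      have hk₂c : k₂ ≠ c := by
        rintro rfl
        exact hk₂ hAc
      refine finish_sparse hK h6 hl (c := c) (d := k₁) (e := k₂) (α := Ψ (Pi.single c 1)) (β := 0) hk₁c.symm hk₂c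
        h12.symm hc hk₂ (fun y => ?_) hI
      rw [covector_apply, Finset.sum_eq_single c]
      · ring
      · intro k _ hk
        have h3 := hzk k (hd k hk)
        rw [hζ0] at h3
        have := (mul_eq_zero.1 h3).resolve_left (hd k hk)
        rw [this, mul_zero]
      · simp
  · -- a fourth coordinate
    obtain ⟨k₄, hk₄, h14, h24, h34⟩ : ∃ k₄, A k₄ ≠ 0 ∧ k₄ ≠ k₁ ∧ k₄ ≠ k₂ ∧ k₄ ≠ k₃ := by
      by_contra hcon
      push Not at hcon
      have h3 : ∑ k, A k * Ψ (Pi.single k 1) = ∑ k ∈ ({k₁, k₂, k₃} : Finset ι), A k * Ψ (Pi.single k 1) := by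
        symm
        apply Finset.sum_subset (Finset.subset_univ _)
        intro k _ hk
        simp only [Finset.mem_insert, Finset.mem_singleton, not_or] at hk
        have : A k = 0 := by
          by_contra h
          exact hk.2.2 (hcon k h hk.1 hk.2.1)
        rw [this, zero_mul]
      rw [h3, Finset.sum_insert (by simp [h12, h13']), Finset.sum_insert (by simp [h23]), Finset.sum_singleton,
        hzk k₂ hk₂, hzk k₃ hk₃] at hsum
      apply hζ0
      linear_combination hsum - ζ * h2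
    -- the parameters
    obtain ⟨s, hs⟩ := exists_notMem_finset ({0, 1} : Finset F) (by
      have := Finset.card_le_two (a := (0 : F)) (b := 1)
      omega)
    simp only [Finset.mem_insert, Finset.mem_singleton, not_or] at hs
    obtain ⟨t, ht⟩ := exists_notMem_finset ({0, 1, s, -(1 + s)} : Finset F) (by
      have := Finset.card_le_four (a := (0 : F)) (b := 1) (c := s) (d := -(1 + s))
      omega)
    simp only [Finset.mem_insert, Finset.mem_singleton, not_or] at ht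
    have hr : 1 + s + t ≠ 0 := by
      intro h
      apply ht.2.2.2
      linear_combination h
    set r := 1 + s + t with hrdef
    let us : Fˣ := Units.mk0 s hs.1
    let ut : Fˣ := Units.mk0 t ht.1
    let ur : Fˣ := Units.mk0 r hr
    have hX : (s⁻¹ + t⁻¹ + r⁻¹ - 3) ≠ 0 := by
      intro h
      have h3 : (s⁻¹ + t⁻¹ + r⁻¹ - 3) * (s * t * r) = (s + t) * (1 + s) * (1 + t) := by
        have hs0 := hs.1
        have ht0 := ht.1
        field_simp
        rw [hrdef]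
        linear_combination (-2 * s ^ 2 * t - 2 * s * t ^ 2 - s * t) * h2
      rw [h, zero_mul] at h3
      have h4 : s + t ≠ 0 := by
        intro h5
        apply ht.2.2.1
        linear_combination - h5 + t * h2
      have h5 : 1 + s ≠ 0 := by
        intro h5
        apply hs.2
        linear_combination h5 - h2
      have h6 : 1 + t ≠ 0 := by
        intro h5
        apply ht.2.1
        linear_combination h5 - h2
      exact mul_ne_zero (mul_ne_zero h4 h5) h6 h3.symm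
    have hS0 : s + t + r - 3 = 0 := by
      rw [hrdef]
      linear_combination (s + t - 1) * h2
    by_cases hf : ∃ f, A f = 0
    · obtain ⟨f, hAf⟩ := hf
      have hf₁ : f ≠ k₁ := by
        rintro rfl
        exact hk₁ hAf
      have hf₂ : f ≠ k₂ := by
        rintro rfl
        exact hk₂ hAf
      have hf₃ : f ≠ k₃ := by
        rintro rfl
        exact hk₃ hAf
      have hf₄ : f ≠ k₄ := by
        rintro rfl
        exact hk₄ hAf
      let u := five k₂ k₃ k₄ f k₁ us ut ur (us * ut * ur)⁻¹ 1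
      have hSf : ∀ (ν : Fˣ → F), ∑ k, ν (u k) * (A k * Ψ (Pi.single k 1)) =
          ν 1 * 0 + ((ν us - ν 1) * ζ + (ν ut - ν 1) * ζ + (ν ur - ν 1) * ζ) := by
        intro ν
        rw [sum_five k₂ k₃ k₄ f k₁ us ut ur (us * ut * ur)⁻¹ 1 h23 h24.symm (Ne.symm hf₂) h12.symm h34.symm (Ne.symm hf₃)
          h13'.symm (Ne.symm hf₄) h14 hf₁, ← Finset.mul_sum, hsum, hzk k₂ hk₂, hzk k₃ hk₃, hzk k₄ hk₄, hAf]
        ring
      refine even_m3 h2 hK h6 hl hI u ?_ ?_ ?_ (p := k₁) (q := k₂) (e := k₃) h12 h13'.symm h23.symm hk₁ hk₂ hk₃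
        (hzk k₂ hk₂).symm hζ0 ?_
      · rw [prod_five k₂ k₃ k₄ f k₁ us ut ur (us * ut * ur)⁻¹ 1 h23 h24.symm (Ne.symm hf₂) h12.symm h34.symm (Ne.symm hf₃)
          h13'.symm (Ne.symm hf₄) h14 hf₁]
        simp only [Units.val_one, mul_one, Units.val_inv_eq_inv_val, Units.val_mul]
        have : (us : F) * ut * ur ≠ 0 := mul_ne_zero (mul_ne_zero us.ne_zero ut.ne_zero) ur.ne_zero
        field_simp
      · rw [hSf (fun w => (w : F))]
        simp only [Units.val_one, us, ut, ur, Units.val_mk0]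
        linear_combination ζ * hS0
      · rw [hSf (fun w => ((w⁻¹ : Fˣ) : F))]
        simp only [inv_one, Units.val_one, mul_zero, zero_add, us, ut, ur, Units.val_inv_eq_inv_val, Units.val_mk0]
        intro h
        apply hX
        have : ζ * (s⁻¹ + t⁻¹ + r⁻¹ - 3) = 0 := by linear_combination h
        exact (mul_eq_zero.1 this).resolve_left hζ0
      · have h3 : u k₁ = 1 := by
          simp [u, five, h12, h13', Ne.symm h14, Ne.symm hf₁]
        have h4 : u k₂ = us := by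
          simp [u, five]
        rw [h3, h4]
        intro h
        apply hs.2
        have := congrArg Units.val h
        simpa [us] using this.symm
    · push Not at hf
      -- all the coordinates are non-zero
      obtain ⟨k₅, hk₅⟩ := exists_notMem_finset ({k₁, k₂, k₃, k₄} : Finset ι) (by
        have := Finset.card_le_four (a := k₁) (b := k₂) (c := k₃) (d := k₄)
        omega)
      simp only [Finset.mem_insert, Finset.mem_singleton, not_or] at hk₅
      obtain ⟨k₆, hk₆⟩ := exists_notMem_finset ({k₁, k₂, k₃, k₄, k₅} : Finset ι) (by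
        have : ({k₁, k₂, k₃, k₄, k₅} : Finset ι).card ≤ 5 := by
          refine (Finset.card_insert_le _ _).trans ?_
          have := Finset.card_le_four (a := k₂) (b := k₃) (c := k₄) (d := k₅)
          omega
        omega)
      simp only [Finset.mem_insert, Finset.mem_singleton, not_or] at hk₆
      obtain ⟨w, hw⟩ : IsSquare ((s * t * r)⁻¹ : F) := by
        haveI : NeZero (2 : ℕ) := ⟨two_ne_zero⟩
        have hc : ringChar F = 2 := by
          haveI := CharTwo.of_one_ne_zero_of_two_eq_zero (one_ne_zero' F) h2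
          exact ringChar.eq F 2
        exact FiniteField.isSquare_of_char_two hc _
      have hw0 : w ≠ 0 := by
        rintro rfl
        have : (s * t * r)⁻¹ ≠ (0 : F) := inv_ne_zero (mul_ne_zero (mul_ne_zero hs.1 ht.1) hr)
        apply this
        rw [hw]
        ring
      let uw : Fˣ := Units.mk0 w hw0
      let u := five k₂ k₃ k₄ k₅ k₆ us ut ur uw uw
      have hSf : ∀ (ν : Fˣ → F), ∑ k, ν (u k) * (A k * Ψ (Pi.single k 1)) =
          ν 1 * 0 + ((ν us - ν 1) * ζ + (ν ut - ν 1) * ζ + (ν ur - ν 1) * ζ + (ν uw - ν 1) * ζ + (ν uw - ν 1) * ζ) := by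
        intro ν
        rw [sum_five k₂ k₃ k₄ k₅ k₆ us ut ur uw uw h23 h24.symm (Ne.symm hk₅.2.1) (Ne.symm hk₆.2.1) h34.symm
          (Ne.symm hk₅.2.2.1) (Ne.symm hk₆.2.2.1) (Ne.symm hk₅.2.2.2) (Ne.symm hk₆.2.2.2.1) (Ne.symm hk₆.2.2.2.2),
          ← Finset.mul_sum, hsum, hzk k₂ hk₂, hzk k₃ hk₃, hzk k₄ hk₄, hzk k₅ (hf k₅), hzk k₆ (hf k₆)]
      refine even_m3 h2 hK h6 hl hI u ?_ ?_ ?_ (p := k₁) (q := k₂) (e := k₃) h12 h13'.symm h23.symm hk₁ hk₂ hk₃
        (hzk k₂ hk₂).symm hζ0 ?_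
      · rw [prod_five k₂ k₃ k₄ k₅ k₆ us ut ur uw uw h23 h24.symm (Ne.symm hk₅.2.1) (Ne.symm hk₆.2.1) h34.symm
          (Ne.symm hk₅.2.2.1) (Ne.symm hk₆.2.2.1) (Ne.symm hk₅.2.2.2) (Ne.symm hk₆.2.2.2.1) (Ne.symm hk₆.2.2.2.2)]
        simp only [us, ut, ur, uw, Units.val_mk0]
        have : s * t * r ≠ 0 := mul_ne_zero (mul_ne_zero hs.1 ht.1) hr
        calc s * t * r * w * w = (s * t * r) * (w * w) := by ring
          _ = 1 := by rw [← hw]; exact mul_inv_cancel₀ this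
      · rw [hSf (fun w => (w : F))]
        simp only [Units.val_one, us, ut, ur, uw, Units.val_mk0]
        linear_combination ζ * hS0 + ζ * (w - 1) * h2
      · rw [hSf (fun w => ((w⁻¹ : Fˣ) : F))]
        simp only [inv_one, Units.val_one, mul_zero, zero_add, us, ut, ur, uw, Units.val_inv_eq_inv_val, Units.val_mk0]
        intro h
        apply hX
        have : ζ * (s⁻¹ + t⁻¹ + r⁻¹ - 3) = 0 := by linear_combination h - ζ * (w⁻¹ - 1) * h2
        exact (mul_eq_zero.1 this).resolve_left hζ0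
      · have h3 : u k₁ = 1 := by
          simp [u, five, h12, h13', Ne.symm h14, Ne.symm hk₅.1, Ne.symm hk₆.1]
        have h4 : u k₂ = us := by
          simp [u, five]
        rw [h3, h4]
        intro h
        apply hs.2
        have := congrArg Units.val h
        simpa [us] using this.symm

end Cfsg.Agent.Lib.Classical.C2.Even
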