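/-
Overgroups of the monomial group of `GL`: they contain an elementary transvection.
-/
import Mathlib
import Cfsg.Agent.Lib.Classical.C2.Even

set_option autoImplicit false
set_option linter.unusedSectionVars false

namespace Cfsg.Agent.Lib.Classical.C2.GLMode

open scoped Matrix MatrixGroups
open Module Cfsg.Geo
open Cfsg.Agent.Lib.Classical.Geo.Basic Cfsg.Agent.Lib.Classical.Sub.Rat
open Cfsg.Agent.Lib.Classical.C2.Base Cfsg.Agent.Lib.Classical.C2.Finish Cfsg.Agent.Lib.Classical.C2.Even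

variable {ι : Type} [Fintype ι] [DecidableEq ι] {F : Type*} [Field F] {K : Subgroup (GL ι F)}

/-- The pseudo-reflection `x ↦ x + (ε - 1) ρ(x) y`, with `ρ y = 1`, lies in `K`. -/
def RIn (K : Subgroup (GL ι F)) (y : ι → F) (ρ : Dual F (ι → F)) (ε : Fˣ) : Prop :=
  ρ y = 1 ∧ ∃ g ∈ K, ∀ x, (g : Matrix ι ι F) *ᵥ x = x + (((ε : F) - 1) * ρ x) • y

theorem inv_formula {y : ι → F} {ρ : Dual F (ι → F)} {ε : Fˣ} {g : GL ι F} (hρ : ρ y = 1)
    (hg : ∀ x, (g : Matrix ι ι F) *ᵥ x = x + (((ε : F) - 1) * ρ x) • y) (x : ι → F) :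
    ((g⁻¹ : GL ι F) : Matrix ι ι F) *ᵥ x = x + ((((ε⁻¹ : Fˣ) : F) - 1) * ρ x) • y := by
  apply mulVec_injective g
  beta_reduce
  rw [mulVec_inv_mulVec, hg, map_add, map_smul, hρ, Units.val_inv_eq_inv_val]
  have := ε.ne_zero
  ext i
  simp only [Pi.add_apply, Pi.smul_apply, smul_eq_mul]
  field_simp
  ring

theorem RIn.conj {y : ι → F} {ρ : Dual F (ι → F)} {ε : Fˣ} (h : RIn K y ρ ε) {g : GL ι F} (hg : g ∈ K) :
    RIn K ((g : Matrix ι ι F) *ᵥ y) (ρ ∘ₗ Matrix.toLin' ((g⁻¹ : GL ι F) : Matrix ι ι F)) ε := by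
  obtain ⟨h1, r, hr, h2⟩ := h
  refine ⟨by rw [LinearMap.comp_apply, Matrix.toLin'_apply, inv_mulVec_mulVec, h1], g * r * g⁻¹,
    K.mul_mem (K.mul_mem hg hr) (K.inv_mem hg), fun x => ?_⟩
  rw [Units.val_mul, Units.val_mul, ← Matrix.mulVec_mulVec, ← Matrix.mulVec_mulVec, h2, Matrix.mulVec_add,
    mulVec_inv_mulVec, Matrix.mulVec_smul]
  simp

theorem RIn.conj_fix {y : ι → F} {ρ : Dual F (ι → F)} {ε : Fˣ} (h : RIn K y ρ ε) {g : GL ι F} (hg : g ∈ K)
    (hy : (g : Matrix ι ι F) *ᵥ y = y) :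
    RIn K y (ρ ∘ₗ Matrix.toLin' ((g⁻¹ : GL ι F) : Matrix ι ι F)) ε := by
  have := h.conj hg
  rwa [hy] at this

/-- Two pseudo-reflections with the same centre give a transvection. -/
theorem RIn.diff {y : ι → F} {ρ ρ' : Dual F (ι → F)} {ε : Fˣ} (h₁ : RIn K y ρ ε) (h₂ : RIn K y ρ' ε) :
    InM K y (((ε : F) - 1) • (ρ - ρ')) := by
  obtain ⟨h1, r, hr, h2⟩ := h₁
  obtain ⟨h3, s, hs, h4⟩ := h₂
  have h0 : (((ε : F) - 1) • (ρ - ρ')) y = 0 := by
    simp [h1, h3]
  refine ⟨h0, ?_⟩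
  have e : tv _ y h0 = r * s⁻¹ := by
    apply eq_mul_inv_of_mul_eq
    apply gl_ext
    intro x
    rw [gl_mulVec_mul, tv_mulVec, h2, h4]
    simp only [LinearMap.smul_apply, LinearMap.sub_apply, map_add, map_smul, h1, h3, smul_eq_mul]
    ext i
    simp only [Pi.add_apply, Pi.smul_apply, smul_eq_mul]
    ring
  rw [e]
  exact K.mul_mem hr (K.inv_mem hs)

/-- The starting pseudo-reflection. -/
theorem rIn_start (hM : ∀ (σ : Equiv.Perm ι) (c : ι → Fˣ), mono σ c ∈ K) {x₀ : GL ι F} (hx : x₀ ∈ K) (j : ι) (ε : Fˣ) :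
    RIn K ((x₀ : Matrix ι ι F) *ᵥ (Pi.single j 1))
      (LinearMap.proj j ∘ₗ Matrix.toLin' ((x₀⁻¹ : GL ι F) : Matrix ι ι F)) ε := by
  have h0 : RIn K (Pi.single j 1) (LinearMap.proj j) ε := by
    refine ⟨by simp, dAt j ε, hM _ _, fun x => ?_⟩
    rw [dAt_mulVec]
    simp
  exact h0.conj hx

theorem hasMono_of (hM : ∀ (σ : Equiv.Perm ι) (c : ι → Fˣ), mono σ c ∈ K) : HasMono K := fun σ c _ => hM σ c

/-- Step B1. -/
theorem step_b1 (hM : ∀ (σ : Equiv.Perm ι) (c : ι → Fˣ), mono σ c ∈ K) (h6 : 6 ≤ Fintype.card ι) {l : Fˣ} (hl : l ≠ 1)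
    {y : ι → F} {ρ : Dual F (ι → F)} {ε : Fˣ} (hε : ε ≠ 1) (h : RIn K y ρ ε) {f e : ι} (hyf : y f = 0)
    (hρf : ρ (Pi.single f 1) ≠ 0) (hye : y e ≠ 0) : Elem K := by
  classical
  have hef : e ≠ f := by
    rintro rfl
    exact hye hyf
  obtain ⟨d, hd⟩ := exists_notMem_finset ({f, e} : Finset ι) (by
    have := Finset.card_le_two (a := f) (b := e)
    omega)
  simp only [Finset.mem_insert, Finset.mem_singleton, not_or] at hd
  have h1 : RIn K y (ρ ∘ₗ Matrix.toLin' (((dAt f l)⁻¹ : GL ι F) : Matrix ι ι F)) ε := by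
    refine h.conj_fix (hM _ _) ?_
    rw [dAt_mulVec, hyf]
    simp
  have h2 := h.diff h1
  refine finish_sparse (hasMono_of hM) h6 hl (c := f) (d := d) (e := e) (β := 0)
    (α := ((ε : F) - 1) * ((1 - ((l⁻¹ : Fˣ) : F)) * ρ (Pi.single f 1))) (Ne.symm hd.1) hef (Ne.symm hd.2)
    (mul_ne_zero (sub_one_ne hε) (mul_ne_zero ?_ hρf)) hye (fun x => ?_) h2
  · intro h3
    apply inv_sub_one_ne (F := F) hl
    linear_combination - h3
  · simp only [LinearMap.smul_apply, LinearMap.sub_apply, LinearMap.comp_apply, Matrix.toLin'_apply, smul_eq_mul]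
    rw [dAt_inv, dAt_mulVec, map_add, map_smul, smul_eq_mul]
    ring

/-- Step B2. -/
theorem step_b2 (hM : ∀ (σ : Equiv.Perm ι) (c : ι → Fˣ), mono σ c ∈ K) (h6 : 6 ≤ Fintype.card ι) {l : Fˣ} (hl : l ≠ 1)
    {y : ι → F} {ρ : Dual F (ι → F)} {ε : Fˣ} (hε : ε ≠ 1) (h : RIn K y ρ ε) {a a' e : ι} (haa' : a ≠ a')
    (hea : e ≠ a) (hea' : e ≠ a') (hya : y a ≠ 0) (hya' : y a' ≠ 0) (hye : y e ≠ 0)
    (hz : y a * ρ (Pi.single a 1) ≠ y a' * ρ (Pi.single a' 1)) : Elem K := by
  classical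
  let α : Fˣ := Units.mk0 (y a' / y a) (div_ne_zero hya' hya)
  have hα : (α : F) = y a' / y a := rfl
  have hfix : ((sw a a' α : GL ι F) : Matrix ι ι F) *ᵥ y = y := by
    ext i
    rw [sw_apply haa', Units.val_inv_eq_inv_val, hα]
    by_cases h1 : i = a
    · subst h1
      simp only [if_true]
      field_simp
    · by_cases h2 : i = a'
      · subst h2
        simp only [h1, if_false, if_true]
        field_simp
      · simp [h1, h2]
  have h1 : RIn K y (ρ ∘ₗ Matrix.toLin' (((sw a a' α)⁻¹ : GL ι F) : Matrix ι ι F)) ε :=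
    h.conj_fix (hM _ _) hfix
  have h2 := h.diff h1
  refine finish_sparse (hasMono_of hM) h6 hl (c := a) (d := a') (e := e)
    (β := ((ε : F) - 1) * (ρ (Pi.single a' 1) - ((α⁻¹ : Fˣ) : F) * ρ (Pi.single a 1)))
    (α := ((ε : F) - 1) * (ρ (Pi.single a 1) - (α : F) * ρ (Pi.single a' 1))) haa' hea hea'
    (mul_ne_zero (sub_one_ne hε) ?_) hye (fun x => ?_) h2
  · intro h3
    apply hz
    rw [hα] at h3
    field_simp at h3
    linear_combination h3
  · simp only [LinearMap.smul_apply, LinearMap.sub_apply, LinearMap.comp_apply, Matrix.toLin'_apply, smul_eq_mul]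
    rw [sw_inv haa', sw_mulVec haa', map_add, map_add, map_smul, map_smul, smul_eq_mul, smul_eq_mul]
    ring

/-- A transvection with a non-constant product. -/
theorem step_trans (hM : ∀ (σ : Equiv.Perm ι) (c : ι → Fˣ), mono σ c ∈ K) (h6 : 6 ≤ Fintype.card ι) {l : Fˣ}
    (hl : l ≠ 1) {y : ι → F} {χ : Dual F (ι → F)} (h : InM K y χ) {a a' e : ι} (haa' : a ≠ a')
    (hea : e ≠ a) (hea' : e ≠ a') (hya : y a ≠ 0) (hya' : y a' ≠ 0) (hye : y e ≠ 0)
    (hz : y a * χ (Pi.single a 1) ≠ y a' * χ (Pi.single a' 1)) : Elem K := by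
  classical
  let α : Fˣ := Units.mk0 (y a' / y a) (div_ne_zero hya' hya)
  have hα : (α : F) = y a' / y a := rfl
  have hfix : ((sw a a' α : GL ι F) : Matrix ι ι F) *ᵥ y = y := by
    ext i
    rw [sw_apply haa', Units.val_inv_eq_inv_val, hα]
    by_cases h1 : i = a
    · subst h1
      simp only [if_true]
      field_simp
    · by_cases h2 : i = a'
      · subst h2
        simp only [h1, if_false, if_true]
        field_simp
      · simp [h1, h2]
  have h1 : InM K y ((((α : F) * χ (Pi.single a' 1) - χ (Pi.single a 1)) • LinearMap.proj a +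
      (((α⁻¹ : Fˣ) : F) * χ (Pi.single a 1) - χ (Pi.single a' 1)) • LinearMap.proj a')) := by
    refine sub_dual (g := sw a a' α) h (hM _ _) hfix (fun x => ?_)
    rw [sw_inv haa', sw_mulVec haa', map_add, map_add, map_smul, map_smul, smul_eq_mul, smul_eq_mul]
    simp only [LinearMap.add_apply, LinearMap.smul_apply, LinearMap.proj_apply, smul_eq_mul]
    ring
  refine finish_sparse (hasMono_of hM) h6 hl (c := a) (d := a') (e := e)
    (β := (((α⁻¹ : Fˣ) : F) * χ (Pi.single a 1) - χ (Pi.single a' 1)))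
    (α := ((α : F) * χ (Pi.single a' 1) - χ (Pi.single a 1))) haa' hea hea' ?_ hye (fun x => ?_) h1
  · intro h3
    apply hz
    rw [hα] at h3
    field_simp at h3
    linear_combination - h3
  · simp

/-- The numerical lemma. -/
theorem exists_triple [Fintype F] (h2 : (2 : F) ≠ 0) (hq : 5 ≤ Fintype.card F) (R : F) :
    ∃ u₁ u₂ u₃ : Fˣ, (u₁ : F) + u₂ + u₃ = R ∧ ((u₁⁻¹ : Fˣ) : F) + ((u₂⁻¹ : Fˣ) : F) + ((u₃⁻¹ : Fˣ) : F) ≠ R ∧
      ¬ (u₁ = u₂ ∧ u₁ = u₃) := by
  classical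
  have hm1 : (-1 : F) ≠ 1 := by
    intro h
    apply h2
    linear_combination - h
  have hm0 : (-1 : F) ≠ 0 := by simp
  by_cases hR : R ≠ 0 ∧ R ^ 2 ≠ 1
  · refine ⟨Units.mk0 R hR.1, 1, Units.mk0 (-1) hm0, ?_, ?_, ?_⟩
    · simp
    · simp only [Units.val_inv_eq_inv_val, Units.val_mk0, Units.val_one, inv_one]
      intro h
      apply hR.2
      have h0 := hR.1
      rw [inv_neg, inv_one] at h
      field_simp at h
      linear_combination - h
    · rintro ⟨h3, h4⟩
      apply hm1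
      have := congrArg Units.val (h3.symm.trans h4)
      simpa using this.symm
  have hR' : R = 0 ∨ R ^ 2 = 1 := by
    by_contra hcon
    push Not at hcon
    exact hR hcon
  by_cases h3 : (3 : F) = 0
  · -- characteristic three
    obtain ⟨t, ht⟩ := exists_notMem_finset ({0, 1, -1} : Finset F) (by
      have := Finset.card_le_three (a := (0 : F)) (b := 1) (c := -1)
      omega)
    simp only [Finset.mem_insert, Finset.mem_singleton, not_or] at ht
    have ht1 : 1 + t ≠ 0 := by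
      intro h
      apply ht.2.2
      linear_combination h
    have htm : t - 1 ≠ 0 := sub_ne_zero.2 ht.2.1
    rcases hR' with rfl | hR2
    · have h5 : -1 - t ≠ 0 := by
        intro h
        apply ht1
        linear_combination - h
      refine ⟨1, Units.mk0 t ht.1, Units.mk0 (-1 - t) h5, ?_, ?_, ?_⟩
      · simp
      · simp only [Units.val_inv_eq_inv_val, Units.val_mk0, Units.val_one, inv_one]
        intro h
        have h0 := ht.1
        field_simp at h
        have h6 : (t - 1) ^ 2 = 0 := by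
          linear_combination - h - t * h3
        exact htm (pow_eq_zero_iff (two_ne_zero)|>.1 h6)
      · rintro ⟨h3', -⟩
        apply ht.2.1
        have := congrArg Units.val h3'
        simpa using this.symm
    · have hR0 : R ≠ 0 := by
        rintro rfl
        simp at hR2
      refine ⟨Units.mk0 (R * t) (mul_ne_zero hR0 ht.1), Units.mk0 (R * t) (mul_ne_zero hR0 ht.1),
        Units.mk0 (R * (1 + t)) (mul_ne_zero hR0 ht1), ?_, ?_, ?_⟩
      · simp only [Units.val_mk0]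
        linear_combination (R * t) * h3
      · simp only [Units.val_inv_eq_inv_val, Units.val_mk0]
        intro h
        have h0 := ht.1
        field_simp at h
        have h6 : (t - 1) ^ 2 = 0 := by
          have h7 : R ^ 2 * (t * (1 + t)) = t * (1 + t) := by
            rw [hR2, one_mul]
          have h8 : 2 * (1 + t) + t = t * (1 + t) := by
            linear_combination h + h7
          linear_combination h3 - h8
        exact htm (pow_eq_zero_iff (two_ne_zero)|>.1 h6)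
      · rintro ⟨-, h4⟩
        have h5 := congrArg Units.val h4
        simp only [Units.val_mk0] at h5
        have : R = 0 := by linear_combination - h5
        exact hR0 this
  · rcases hR' with rfl | hR2
    · have h5 : (-2 : F) ≠ 0 := by simpa using h2
      refine ⟨1, 1, Units.mk0 (-2) h5, ?_, ?_, ?_⟩
      · simp
        ring
      · simp only [Units.val_inv_eq_inv_val, Units.val_mk0, Units.val_one, inv_one]
        intro h
        apply h3
        field_simp at h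
        linear_combination h
      · rintro ⟨-, h4⟩
        apply h3
        have h5 := congrArg Units.val h4
        simp only [Units.val_mk0, Units.val_one] at h5
        linear_combination h5
    · have hR0 : R ≠ 0 := by
        rintro rfl
        simp at hR2
      refine ⟨Units.mk0 (3 * R) (mul_ne_zero h3 hR0), Units.mk0 (-R) (neg_ne_zero.2 hR0),
        Units.mk0 (-R) (neg_ne_zero.2 hR0), ?_, ?_, ?_⟩
      · simp only [Units.val_mk0]
        ring
      · simp only [Units.val_inv_eq_inv_val, Units.val_mk0]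
        intro h
        field_simp at h
        have h8 : (8 : F) = 0 := by
          linear_combination - h - 3 * hR2
        have h9 : (2 : F) ^ 3 = 0 := by
          linear_combination h8
        exact h2 (pow_eq_zero_iff (by norm_num)|>.1 h9)
      · rintro ⟨h4, -⟩
        have h5 := congrArg Units.val h4
        simp only [Units.val_mk0] at h5
        have h8 : (2 : F) ^ 2 * R = 0 := by linear_combination h5
        exact (mul_ne_zero (pow_ne_zero 2 h2) hR0) h8

/-- A pseudo-reflection whose centre has at least three non-zero coordinates. -/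
theorem gl_main3 [Fintype F] (h2 : (2 : F) ≠ 0) (hq : 5 ≤ Fintype.card F)
    (hM : ∀ (σ : Equiv.Perm ι) (c : ι → Fˣ), mono σ c ∈ K) (h6' : 6 ≤ Fintype.card ι) {l : Fˣ} (hl : l ≠ 1)
    {y : ι → F} {ρ : Dual F (ι → F)} {ε : Fˣ} (hε : ε ≠ 1) (h : RIn K y ρ ε) {k₁ k₂ k₃ : ι} (h12 : k₁ ≠ k₂)
    (h13 : k₁ ≠ k₃) (h23 : k₂ ≠ k₃) (hk₁ : y k₁ ≠ 0) (hk₂ : y k₂ ≠ 0) (hk₃ : y k₃ ≠ 0) : Elem K := by
  classical
  by_cases hB1 : ∃ f, y f = 0 ∧ ρ (Pi.single f 1) ≠ 0
  · obtain ⟨f, hf, hρf⟩ := hB1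
    exact step_b1 hM h6' hl hε h hf hρf hk₁
  push Not at hB1
  by_cases hB2 : ∃ a a', a ≠ a' ∧ y a ≠ 0 ∧ y a' ≠ 0 ∧ y a * ρ (Pi.single a 1) ≠ y a' * ρ (Pi.single a' 1)
  · obtain ⟨c, d, hcd, hAc, hAd, hz⟩ := hB2
    obtain ⟨e, hAe, hec, hed⟩ : ∃ e, y e ≠ 0 ∧ e ≠ c ∧ e ≠ d := by
      by_contra hcon
      push Not at hcon
      have a1 := hcon k₁ hk₁
      have a2 := hcon k₂ hk₂
      have a3 := hcon k₃ hk₃
      by_cases b1 : k₁ = c <;> by_cases b2 : k₂ = c <;> by_cases b3 : k₃ = c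
      all_goals first
        | exact h12 (b1.trans b2.symm)
        | exact h13 (b1.trans b3.symm)
        | exact h23 (b2.trans b3.symm)
        | exact h12 ((a1 b1).trans (a2 b2).symm)
        | exact h13 ((a1 b1).trans (a3 b3).symm)
        | exact h23 ((a2 b2).trans (a3 b3).symm)
    exact step_b2 hM h6' hl hε h hcd hec hed hAc hAd hAe hz
  push Not at hB2
  set ζ := y k₁ * ρ (Pi.single k₁ 1) with hζ
  have hzk : ∀ k, y k ≠ 0 → y k * ρ (Pi.single k 1) = ζ := by
    intro k hk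
    by_cases h1 : k = k₁
    · rw [h1]
    · exact hB2 k k₁ h1 hk hk₁
  have hsum : ∑ k, y k * ρ (Pi.single k 1) = 1 := by
    rw [← covector_apply]
    exact h.1
  have hζ0 : ζ ≠ 0 := by
    intro h0
    rw [Finset.sum_eq_zero] at hsum
    · exact zero_ne_one hsum
    · intro k _
      by_cases hk : y k = 0
      · rw [hk, zero_mul]
      · rw [hzk k hk, h0]
  obtain ⟨k₄, hk₄⟩ := exists_notMem_finset ({k₁, k₂, k₃} : Finset ι) (by
    have := Finset.card_le_three (a := k₁) (b := k₂) (c := k₃)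
    omega)
  simp only [Finset.mem_insert, Finset.mem_singleton, not_or] at hk₄
  obtain ⟨k₅, hk₅⟩ := exists_notMem_finset ({k₁, k₂, k₃, k₄} : Finset ι) (by
    have := Finset.card_le_four (a := k₁) (b := k₂) (c := k₃) (d := k₄)
    omega)
  simp only [Finset.mem_insert, Finset.mem_singleton, not_or] at hk₅
  obtain ⟨u₁, u₂, u₃, hu1, hu2, hu3⟩ := exists_triple h2 hq (3 - ζ⁻¹)
  have h14 : k₁ ≠ k₄ := Ne.symm hk₄.1
  have h24 : k₂ ≠ k₄ := Ne.symm hk₄.2.1
  have h34 : k₃ ≠ k₄ := Ne.symm hk₄.2.2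
  have h15 : k₁ ≠ k₅ := Ne.symm hk₅.1
  have h25 : k₂ ≠ k₅ := Ne.symm hk₅.2.1
  have h35 : k₃ ≠ k₅ := Ne.symm hk₅.2.2.1
  have h45 : k₄ ≠ k₅ := Ne.symm hk₅.2.2.2
  let u := five k₁ k₂ k₃ k₄ k₅ u₁ u₂ u₃ 1 1
  have hSf : ∀ (ν : Fˣ → F), ∑ k, ν (u k) * (y k * ρ (Pi.single k 1)) =
      ν 1 * 1 + ((ν u₁ - ν 1) * ζ + (ν u₂ - ν 1) * ζ + (ν u₃ - ν 1) * ζ) := by
    intro ν
    rw [sum_five k₁ k₂ k₃ k₄ k₅ u₁ u₂ u₃ 1 1 h12 h13 h14 h15 h23 h24 h25 h34 h35 h45, ← Finset.mul_sum, hsum,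
      hzk k₂ hk₂, hzk k₃ hk₃]
    ring
  let d : GL ι F := mono 1 (fun k => (u k)⁻¹)
  have hdi : ∀ x : ι → F, ((d⁻¹ : GL ι F) : Matrix ι ι F) *ᵥ x = fun k => (u k : F) * x k := by
    intro x
    ext k
    rw [mono_inv, mono_apply]
    simp
  have hd : ∀ x : ι → F, ((d : GL ι F) : Matrix ι ι F) *ᵥ x = fun k => (((u k)⁻¹ : Fˣ) : F) * x k := by
    intro x
    ext k
    rw [mono_apply]
    simp
  obtain ⟨hθ, g, hg, hgf⟩ := h.conj (g := d) (hM _ _)
  set θ : Dual F (ι → F) := ρ ∘ₗ Matrix.toLin' ((d⁻¹ : GL ι F) : Matrix ι ι F) with hθdef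
  set w := ((d : GL ι F) : Matrix ι ι F) *ᵥ y with hw
  have hθx : ∀ x, θ x = ∑ k, (u k : F) * x k * ρ (Pi.single k 1) := by
    intro x
    rw [hθdef, LinearMap.comp_apply, Matrix.toLin'_apply, hdi, covector_apply]
  have hθy : θ y = 0 := by
    rw [hθx]
    have := hSf (fun w => (w : F))
    simp only [Units.val_one] at this
    calc ∑ k, (u k : F) * y k * ρ (Pi.single k 1) = ∑ k, (u k : F) * (y k * ρ (Pi.single k 1)) :=
          Finset.sum_congr rfl fun k _ => by ring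
      _ = 0 := by
          rw [this]
          have h5 : (u₁ : F) + u₂ + u₃ - 3 = - ζ⁻¹ := by
            rw [hu1]
            ring
          have : ζ * ((u₁ : F) + u₂ + u₃ - 3) = -1 := by
            rw [h5, mul_neg, mul_inv_cancel₀ hζ0]
          linear_combination this
  have hρw : ρ w ≠ 0 := by
    rw [hw, hd, covector_apply]
    have := hSf (fun w => ((w⁻¹ : Fˣ) : F))
    simp only [inv_one, Units.val_one] at this
    intro h0
    apply hu2
    have h5 : ∑ k, (((u k)⁻¹ : Fˣ) : F) * y k * ρ (Pi.single k 1) = ∑ k, (((u k)⁻¹ : Fˣ) : F) * (y k * ρ (Pi.single k 1)) :=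
          Finset.sum_congr rfl fun k _ => by ring
    rw [h5, this] at h0
    have h6 : ζ * (((u₁⁻¹ : Fˣ) : F) + ((u₂⁻¹ : Fˣ) : F) + ((u₃⁻¹ : Fˣ) : F) - 3) = -1 := by
      linear_combination h0
    have h7 : ((u₁⁻¹ : Fˣ) : F) + ((u₂⁻¹ : Fˣ) : F) + ((u₃⁻¹ : Fˣ) : F) - 3 = - ζ⁻¹ := by
      field_simp
      linear_combination h6
    linear_combination h7
  have hgy : (g : Matrix ι ι F) *ᵥ y = y := by
    rw [hgf, hθy]
    simp
  have h1 := h.conj_fix hg hgy
  have h3 := h.diff h1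
  set c' : F := - (((ε : F) - 1) * (((ε⁻¹ : Fˣ) : F) - 1) * ρ w) with hc'
  have hc0 : c' ≠ 0 := by
    rw [hc']
    exact neg_ne_zero.2 (mul_ne_zero (mul_ne_zero (sub_one_ne hε) (inv_sub_one_ne hε)) hρw)
  have h4 : InM K y (c' • θ) := by
    refine InM.iff rfl ?_ h3
    apply LinearMap.ext
    intro x
    simp only [LinearMap.smul_apply, LinearMap.sub_apply, LinearMap.comp_apply, Matrix.toLin'_apply, smul_eq_mul]
    rw [inv_formula hθ hgf, map_add, map_smul, smul_eq_mul, hc']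
    ring
  have hθk : ∀ k, θ (Pi.single k 1) = (u k : F) * ρ (Pi.single k 1) := by
    intro k
    rw [hθdef, LinearMap.comp_apply, Matrix.toLin'_apply, hdi]
    have : (fun k_1 => (u k_1 : F) * (Pi.single k 1 : ι → F) k_1) = (u k : F) • (Pi.single k 1 : ι → F) := by
      ext i
      by_cases h : i = k
      · subst h
        simp
      · simp [h]
    rw [this, map_smul, smul_eq_mul]
  have hu₁ : u k₁ = u₁ := by
    simp [u, five]
  have hu₂ : u k₂ = u₂ := by
    simp [u, five, h12.symm]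
  have hu₃ : u k₃ = u₃ := by
    simp [u, five, h13.symm, h23.symm]
  have key : ∀ a a', y a ≠ 0 → y a' ≠ 0 → u a ≠ u a' →
      y a * (c' • θ) (Pi.single a 1) ≠ y a' * (c' • θ) (Pi.single a' 1) := by
    intro a a' ha ha' hne h0
    apply hne
    apply Units.ext
    simp only [LinearMap.smul_apply, smul_eq_mul, hθk] at h0
    have h5 : (c' * ζ) * ((u a : F) - (u a' : F)) = 0 := by
      linear_combination h0 - c' * (u a : F) * (hzk a ha) + c' * (u a' : F) * (hzk a' ha')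
    have h6 := (mul_eq_zero.1 h5).resolve_left (mul_ne_zero hc0 hζ0)
    linear_combination h6
  by_cases h5 : u₁ = u₂
  · have h6 : u₁ ≠ u₃ := fun h => hu3 ⟨h5, h⟩
    refine step_trans hM h6' hl h4 h13 h12.symm h23 hk₁ hk₃ hk₂ (key _ _ hk₁ hk₃ ?_)
    rw [hu₁, hu₃]
    exact h6
  · refine step_trans hM h6' hl h4 h12 h13.symm h23.symm hk₁ hk₂ hk₃ (key _ _ hk₁ hk₂ ?_)
    rw [hu₁, hu₂]
    exact h5

/-- **GL-mode.** An overgroup of the monomial group which contains a non-monomial matrix contains an elementary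
transvection. -/
theorem gl_main [Fintype F] (h2 : (2 : F) ≠ 0) (hq : 5 ≤ Fintype.card F)
    (hM : ∀ (σ : Equiv.Perm ι) (c : ι → Fˣ), mono σ c ∈ K) (h6 : 6 ≤ Fintype.card ι) {x : GL ι F} (hxK : x ∈ K)
    (hx : ¬ IsMono x) : Elem K := by
  classical
  obtain ⟨l, hl⟩ := exists_ne_one (F := F) (by omega)
  obtain ⟨j, a, a', hne, hya, hya'⟩ := exists_column_two hx
  set y := (x : Matrix ι ι F) *ᵥ (Pi.single j 1) with hy
  set ρ : Dual F (ι → F) := LinearMap.proj j ∘ₗ Matrix.toLin' ((x⁻¹ : GL ι F) : Matrix ι ι F) with hρ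
  have hstart : ∀ ε : Fˣ, RIn K y ρ ε := fun ε => rIn_start hM hxK j ε
  by_cases h3 : ∃ k, k ≠ a ∧ k ≠ a' ∧ y k ≠ 0
  · obtain ⟨k, hka, hka', hyk⟩ := h3
    exact gl_main3 h2 hq hM h6 hl hl (hstart l) hne (Ne.symm hka) (Ne.symm hka') hya hya' hyk
  push Not at h3
  by_cases hB1 : ∃ f, y f = 0 ∧ ρ (Pi.single f 1) ≠ 0
  · obtain ⟨f, hf, hρf⟩ := hB1
    exact step_b1 hM h6 hl hl (hstart l) hf hρf hya
  push Not at hB1
  have hsum : y a * ρ (Pi.single a 1) + y a' * ρ (Pi.single a' 1) = 1 := by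
    have h4 : ρ y = 1 := (hstart l).1
    rw [covector_apply, ← Finset.sum_subset (Finset.subset_univ {a, a'}), Finset.sum_pair hne] at h4
    · exact h4
    · intro k _ hk
      simp only [Finset.mem_insert, Finset.mem_singleton, not_or] at hk
      rw [h3 k hk.1 hk.2, zero_mul]
  obtain ⟨b, b', hbb', hyb, hyb', hsupp, hzb⟩ : ∃ b b', b ≠ b' ∧ y b ≠ 0 ∧ y b' ≠ 0 ∧ (∀ k, k ≠ b → k ≠ b' → y k = 0) ∧
      y b * ρ (Pi.single b 1) ≠ 0 := by
    by_cases h4 : y a * ρ (Pi.single a 1) = 0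
    · refine ⟨a', a, hne.symm, hya', hya, fun k h5 h6 => h3 k h6 h5, ?_⟩
      rw [h4, zero_add] at hsum
      rw [hsum]
      exact one_ne_zero
    · exact ⟨a, a', hne, hya, hya', h3, h4⟩
  set zb := y b * ρ (Pi.single b 1) with hzbdef
  obtain ⟨f, hf⟩ := exists_notMem_finset ({b, b'} : Finset ι) (by
    have := Finset.card_le_two (a := b) (b := b')
    omega)
  simp only [Finset.mem_insert, Finset.mem_singleton, not_or] at hf
  have hyf : y f = 0 := hsupp f hf.1 hf.2
  have hρf : ρ (Pi.single f 1) = 0 := hB1 f hyf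
  obtain ⟨e, he⟩ := exists_notMem_finset ({0, 1, 1 - zb⁻¹} : Finset F) (by
    have := Finset.card_le_three (a := (0 : F)) (b := 1) (c := 1 - zb⁻¹)
    omega)
  simp only [Finset.mem_insert, Finset.mem_singleton, not_or] at he
  let ε : Fˣ := Units.mk0 e he.1
  have hε : ε ≠ 1 := by
    intro h
    apply he.2.1
    have := congrArg Units.val h
    simpa [ε] using this
  have hb'f : b' ≠ f := Ne.symm hf.2
  let τ : GL ι F := sw b' f 1
  have hr' := (hstart ε).conj (g := τ) (hM _ _)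
  obtain ⟨-, g, hg, hgf⟩ := hstart ε
  have hr'' := hr'.conj hg
  set w := (τ : Matrix ι ι F) *ᵥ y with hw
  have hwk : ∀ k, w k = if k = b' then y f else if k = f then y b' else y k := by
    intro k
    rw [hw, sw_apply hb'f]
    simp
  have hρw : ρ w = zb := by
    rw [covector_apply, Finset.sum_eq_single b]
    · rw [hwk]
      simp [hbb', Ne.symm hf.1, hzbdef]
    · intro k _ hk
      rw [hwk]
      by_cases h4 : k = b'
      · simp [h4, hyf]
      · by_cases h5 : k = f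
        · simp [h5, hρf, Ne.symm hf.2]
        · simp [h4, h5, hsupp k hk h4]
    · simp
  have hcen : (g : Matrix ι ι F) *ᵥ w = w + (((ε : F) - 1) * zb) • y := by
    rw [hgf, hρw]
  have hε1 : (ε : F) - 1 ≠ 0 := sub_one_ne hε
  refine gl_main3 h2 hq hM h6 hl hε hr'' (k₁ := b) (k₂ := b') (k₃ := f) hbb' (Ne.symm hf.1) hb'f ?_ ?_ ?_
  · rw [hcen, Pi.add_apply, Pi.smul_apply, hwk]
    simp only [hbb', Ne.symm hf.1, if_false, smul_eq_mul]
    intro h4
    have h5 : y b * (1 + ((ε : F) - 1) * zb) = 0 := by linear_combination h4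
    have h6 := (mul_eq_zero.1 h5).resolve_left hyb
    apply he.2.2
    change (ε : F) = _
    field_simp
    linear_combination h6
  · rw [hcen, Pi.add_apply, Pi.smul_apply, hwk]
    simp only [if_true, smul_eq_mul, hyf, zero_add]
    exact mul_ne_zero (mul_ne_zero hε1 hzb) hyb'
  · rw [hcen, Pi.add_apply, Pi.smul_apply, hwk, if_neg hf.2, if_pos rfl, hyf, smul_zero, add_zero]
    exact hyb'

end Cfsg.Agent.Lib.Classical.C2.GLMode
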