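/-
From a non-monomial element fixing a coordinate line to an elementary transvection.
-/
import Mathlib
import Cfsg.Agent.Lib.Classical.C2.GLMode

set_option autoImplicit false
set_option linter.unusedSectionVars false

namespace Cfsg.Agent.Lib.Classical.C2.Hub

open scoped Matrix MatrixGroups
open Module Cfsg.Geo
open Cfsg.Agent.Lib.Classical.Geo.Basic Cfsg.Agent.Lib.Classical.Sub.Rat
open Cfsg.Agent.Lib.Classical.C2.Base Cfsg.Agent.Lib.Classical.C2.Finish Cfsg.Agent.Lib.Classical.C2.GLMode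

variable {ι : Type} [Fintype ι] [DecidableEq ι] {F : Type*} [Field F] {K : Subgroup (GL ι F)}

/-- `g` is the action of `z` modulo the `c`-th coordinate vector. -/
def Rel (c : ι) (z : GL ι F) (g : GL {i : ι // i ≠ c} F) : Prop :=
  ∀ (x : ι → F) (j : {i : ι // i ≠ c}), ((z : Matrix ι ι F) *ᵥ x) j =
    ((g : Matrix {i : ι // i ≠ c} {i : ι // i ≠ c} F) *ᵥ (fun i => x i)) j

theorem Rel.one (c : ι) : Rel c (1 : GL ι F) 1 := by
  intro x j
  simp

theorem Rel.mul {c : ι} {z z' : GL ι F} {g g' : GL {i : ι // i ≠ c} F} (h : Rel c z g) (h' : Rel c z' g') :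
    Rel c (z * z') (g * g') := by
  intro x j
  rw [gl_mulVec_mul, gl_mulVec_mul, h]
  congr 2
  ext i
  exact h' x i

theorem Rel.inv {c : ι} {z : GL ι F} {g : GL {i : ι // i ≠ c} F} (h : Rel c z g) : Rel c z⁻¹ g⁻¹ := by
  intro x j
  have h1 : (fun i : {i : ι // i ≠ c} => x i) = (g : Matrix {i : ι // i ≠ c} {i : ι // i ≠ c} F) *ᵥ (fun i => (((z⁻¹ : GL ι F) : Matrix ι ι F) *ᵥ x) i) := by
    ext i
    rw [← h, mulVec_inv_mulVec]
  rw [h1, inv_mulVec_mulVec]

/-- The image of `K` in the quotient. -/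
def image (K : Subgroup (GL ι F)) (c : ι) : Subgroup (GL {i : ι // i ≠ c} F) where
  carrier := {g | ∃ z ∈ K, Rel c z g}
  mul_mem' := by
    rintro _ _ ⟨z, hz, h⟩ ⟨z', hz', h'⟩
    exact ⟨_, K.mul_mem hz hz', h.mul h'⟩
  one_mem' := ⟨1, K.one_mem, Rel.one c⟩
  inv_mem' := by
    rintro _ ⟨z, hz, h⟩
    exact ⟨_, K.inv_mem hz, h.inv⟩

/-- An element fixing the `c`-th coordinate line acts on the quotient. -/
theorem exists_rel {c : ι} {z : GL ι F} {κ : F} (hz : (z : Matrix ι ι F) *ᵥ (Pi.single c 1) = κ • (Pi.single c 1 : ι → F)) :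
    ∃ g, Rel c z g := by
  classical
  have hκ : κ ≠ 0 := by
    rintro rfl
    have h1 := mulVec_injective z (hz.trans ((zero_smul F _).trans (Matrix.mulVec_zero _).symm))
    have h2 := congrFun h1 c
    simp at h2
  have main : ∀ {z : GL ι F} {κ : F}, (z : Matrix ι ι F) *ᵥ (Pi.single c 1) = κ • (Pi.single c 1 : ι → F) →
      ∀ (x : ι → F) (j : {i : ι // i ≠ c}), ((z : Matrix ι ι F) *ᵥ x) j =
        (((z : Matrix ι ι F).submatrix (fun i : {i : ι // i ≠ c} => (i : ι)) (fun i : {i : ι // i ≠ c} => (i : ι))) *ᵥ (fun i => x i)) j := by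
    intro z κ hz x j
    simp only [Matrix.mulVec, dotProduct, Matrix.submatrix_apply]
    rw [Fintype.sum_eq_add_sum_subtype_ne _ c]
    have h1 : (z : Matrix ι ι F) j c = 0 := by
      have h2 := congrFun hz j
      rw [Matrix.mulVec_single_one] at h2
      simp only [Matrix.col_apply, Pi.smul_apply, smul_eq_mul] at h2
      rw [h2, Pi.single_eq_of_ne j.2, mul_zero]
    rw [h1, zero_mul, zero_add]
  have hz' : ((z⁻¹ : GL ι F) : Matrix ι ι F) *ᵥ (Pi.single c 1) = κ⁻¹ • (Pi.single c 1 : ι → F) := by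
    apply mulVec_injective z
    beta_reduce
    rw [mulVec_inv_mulVec, Matrix.mulVec_smul, hz, smul_smul, inv_mul_cancel₀ hκ, one_smul]
  have h1 := main hz
  have h2 := main hz'
  set Z := (z : Matrix ι ι F).submatrix (fun i : {i : ι // i ≠ c} => (i : ι)) (fun i : {i : ι // i ≠ c} => (i : ι)) with hZ
  set Z' := ((z⁻¹ : GL ι F) : Matrix ι ι F).submatrix (fun i : {i : ι // i ≠ c} => (i : ι)) (fun i : {i : ι // i ≠ c} => (i : ι)) with hZ'
  let ext : ({i : ι // i ≠ c} → F) → (ι → F) := fun y i => if h : i ≠ c then y ⟨i, h⟩ else 0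
  have hext : ∀ y, (fun i : {i : ι // i ≠ c} => ext y i) = y := by
    intro y
    ext i
    simp [ext, i.2]
  have e1 : Z * Z' = 1 := by
    apply Matrix.toLin'.injective
    apply LinearMap.ext
    intro y
    rw [Matrix.toLin'_mul, LinearMap.comp_apply, Matrix.toLin'_apply, Matrix.toLin'_apply, Matrix.toLin'_one,
      LinearMap.id_apply]
    have h3 : Z' *ᵥ y = fun i : {i : ι // i ≠ c} => (((z⁻¹ : GL ι F) : Matrix ι ι F) *ᵥ ext y) i := by
      ext i
      rw [h2, hext]
    rw [h3]
    ext j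
    rw [← h1, mulVec_inv_mulVec]
    exact congrFun (hext y) j
  have e2 : Z' * Z = 1 := by
    apply Matrix.toLin'.injective
    apply LinearMap.ext
    intro y
    rw [Matrix.toLin'_mul, LinearMap.comp_apply, Matrix.toLin'_apply, Matrix.toLin'_apply, Matrix.toLin'_one,
      LinearMap.id_apply]
    have h3 : Z *ᵥ y = fun i : {i : ι // i ≠ c} => ((z : Matrix ι ι F) *ᵥ ext y) i := by
      ext i
      rw [h1, hext]
    rw [h3]
    ext j
    rw [← h2, inv_mulVec_mulVec]
    exact congrFun (hext y) j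
  exact ⟨⟨Z, Z', e1, e2⟩, h1⟩

/-- The lift of a monomial matrix. -/
theorem exists_lift_mono (hK : HasMono K) (c : ι) (σ : Equiv.Perm {i : ι // i ≠ c}) (d : {i : ι // i ≠ c} → Fˣ) :
    ∃ z ∈ K, IsMono z ∧ Rel c z (mono σ d) := by
  classical
  let s : Equiv.Perm ι := Equiv.Perm.ofSubtype σ
  let d₁ : ι → Fˣ := fun i => if h : i ≠ c then d ⟨i, h⟩ else 1
  have hs : ∀ j : {i : ι // i ≠ c}, s⁻¹ j = ((σ⁻¹ j : {i : ι // i ≠ c}) : ι) := by
    intro j
    rw [← map_inv, Equiv.Perm.ofSubtype_apply_coe]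
  let D : Fˣ := Units.mk0 ((mono s d₁ : GL ι F) : Matrix ι ι F).det
    ((Matrix.isUnit_iff_isUnit_det _).1 (Units.isUnit (mono s d₁ : GL ι F))).ne_zero
  have hdet : ((dAt c D⁻¹ * mono s d₁ : GL ι F) : Matrix ι ι F).det = 1 := by
    rw [Units.val_mul, Matrix.det_mul, dAt_det]
    change (((D⁻¹ : Fˣ) : F)) * (D : F) = 1
    simp
  obtain ⟨σ', c', hc'⟩ := (dAt_isMono (F := F) c D⁻¹).mul (⟨s, d₁, rfl⟩ : IsMono (mono s d₁ : GL ι F))
  refine ⟨dAt c D⁻¹ * mono s d₁, ?_, ⟨σ', c', hc'⟩, ?_⟩
  · rw [hc'] at hdet ⊢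
    exact hK _ _ hdet
  · intro x j
    rw [gl_mulVec_mul, dAt_apply, if_neg j.2, mono_apply, mono_apply, hs]
    have h1 : d₁ ((σ⁻¹ j : {i : ι // i ≠ c}) : ι) = d (σ⁻¹ j) := by
      simp only [d₁]
      rw [dif_pos (σ⁻¹ j).2]
    rw [h1]

/-- A central element of the fibre is a transvection. -/
theorem central {c : ι} (hKS : K ≤ specialLinear ι F) {z : GL ι F} (hz : z ∈ K) (h : Rel c z 1) :
    ∃ ψ : Dual F (ι → F), InM K (Pi.single c 1) ψ ∧ ∀ x, (z : Matrix ι ι F) *ᵥ x = x + ψ x • (Pi.single c 1 : ι → F) := by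
  classical
  let ψ : Dual F (ι → F) := LinearMap.proj c ∘ₗ Matrix.toLin' (z : Matrix ι ι F) - LinearMap.proj c
  have hψ : ∀ x, (z : Matrix ι ι F) *ᵥ x = x + ψ x • (Pi.single c 1 : ι → F) := by
    intro x
    ext i
    by_cases hi : i = c
    · subst hi
      simp [ψ]
    · have h1 := h x ⟨i, hi⟩
      simp only [Units.val_one, Matrix.one_mulVec] at h1
      rw [h1]
      simp [hi]
  have hdet : ψ (Pi.single c 1) = 0 := by
    have h1 : Matrix.toLin' (z : Matrix ι ι F) = LinearMap.transvection ψ (Pi.single c 1) := by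
      apply LinearMap.ext
      intro x
      rw [Matrix.toLin'_apply, hψ]
      rfl
    have h2 : LinearMap.det (Matrix.toLin' (z : Matrix ι ι F)) = 1 := by
      rw [LinearMap.det_toLin']
      exact (mem_specialLinear_iff z).1 (hKS hz)
    rw [h1, LinearMap.transvection.det] at h2
    linear_combination h2
  refine ⟨ψ, ⟨hdet, ?_⟩, hψ⟩
  have : tv ψ (Pi.single c 1) hdet = z := by
    apply gl_ext
    intro x
    rw [tv_mulVec, hψ]
  rw [this]
  exact hz

/-- **The hub.** -/
theorem hub [Fintype F] (h2 : (2 : F) ≠ 0) (hq : 5 ≤ Fintype.card F) (h13 : 13 ≤ Fintype.card ι) (hK : HasMono K)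
    (hKS : K ≤ specialLinear ι F) {z : GL ι F} (hzK : z ∈ K) (hz : ¬ IsMono z) {c : ι} {κ : F}
    (hzc : (z : Matrix ι ι F) *ᵥ (Pi.single c 1) = κ • (Pi.single c 1 : ι → F)) : Elem K := by
  classical
  obtain ⟨l, hl⟩ := exists_ne_one (F := F) (by omega)
  have h6 : 6 ≤ Fintype.card ι := by omega
  have hcard : 6 ≤ Fintype.card {i : ι // i ≠ c} := by
    have := Fintype.card_subtype_compl (fun i : ι => i = c)
    rw [Fintype.card_subtype_eq] at this
    have h3 : Fintype.card {i : ι // i ≠ c} = Fintype.card ι - 1 := this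
    omega
  obtain ⟨g, hg⟩ := exists_rel hzc
  by_cases hgm : IsMono g
  · obtain ⟨σ, d, rfl⟩ := hgm
    obtain ⟨m, hmK, hmm, hmr⟩ := exists_lift_mono hK c σ d
    have h3 : Rel c (z * m⁻¹) 1 := by
      have := hg.mul hmr.inv
      rwa [mul_inv_cancel] at this
    obtain ⟨ψ, hψ, hψx⟩ := central hKS (K.mul_mem hzK (K.inv_mem hmK)) h3
    have hψ0 : ψ ≠ 0 := by
      rintro rfl
      apply hz
      have h5 : z * m⁻¹ = 1 := by
        apply gl_ext
        intro x
        rw [hψx]
        simp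
      rw [mul_inv_eq_one.1 h5]
      exact hmm
    exact finish_center hK h6 hl one_ne_zero hψ0 (by simpa using hψ)
  · have hM : ∀ (σ : Equiv.Perm {i : ι // i ≠ c}) (d : {i : ι // i ≠ c} → Fˣ), mono σ d ∈ image K c := by
      intro σ d
      obtain ⟨m, hmK, -, hmr⟩ := exists_lift_mono hK c σ d
      exact ⟨m, hmK, hmr⟩
    obtain ⟨a, b, t, hab, ht, h0, hmem⟩ := gl_main h2 hq hM hcard (x := g) ⟨z, hzK, hg⟩ hgm
    obtain ⟨ω, hωK, hω⟩ := hmem
    -- the parameter
    obtain ⟨μ₀, hμ₀⟩ := exists_notMem_finset ({0, 1, -1} : Finset F) (by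
      have := Finset.card_le_three (a := (0 : F)) (b := 1) (c := -1)
      omega)
    simp only [Finset.mem_insert, Finset.mem_singleton, not_or] at hμ₀
    let μ : Fˣ := Units.mk0 μ₀ hμ₀.1
    have hμ : μ ≠ 1 := by
      intro h
      apply hμ₀.2.1
      have := congrArg Units.val h
      simpa [μ] using this
    have hμμ : (μ : F) - ((μ⁻¹ : Fˣ) : F) ≠ 0 := by
      simp only [μ, Units.val_mk0, Units.val_inv_eq_inv_val]
      intro h
      have h0 := hμ₀.1
      field_simp at h
      have h3 : (μ₀ - 1) * (μ₀ + 1) = 0 := by linear_combination h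
      rcases mul_eq_zero.1 h3 with h4 | h4
      · exact hμ₀.2.1 (by linear_combination h4)
      · exact hμ₀.2.2 (by linear_combination h4)
    obtain ⟨f, hf⟩ := exists_notMem_finset ({(a : ι), (b : ι), c} : Finset ι) (by
      have := Finset.card_le_three (a := (a : ι)) (b := (b : ι)) (c := c)
      omega)
    simp only [Finset.mem_insert, Finset.mem_singleton, not_or] at hf
    have hcf : c ≠ f := Ne.symm hf.2.2
    let f' : {i : ι // i ≠ c} := ⟨f, hf.2.2⟩
    have hfa : f' ≠ a := fun h => hf.1 (congrArg Subtype.val h)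
    have hfb : f' ≠ b := fun h => hf.2.1 (congrArg Subtype.val h)
    -- the torus element
    have hrel : Rel c (dg c f μ) (dAt f' μ⁻¹) := by
      intro x j
      rw [dg_apply hcf, dAt_apply, if_neg j.2]
      by_cases hj : j = f'
      · subst hj
        simp [f']
      · have : (j : ι) ≠ f := fun h => hj (Subtype.ext h)
        simp [hj, this]
    have hE : ∀ y : {i : ι // i ≠ c} → F, ((tv (LinearMap.proj b) (t • (Pi.single a 1 : {i : ι // i ≠ c} → F)) h0 :
        GL {i : ι // i ≠ c} F) : Matrix _ _ F) *ᵥ y = y + y b • (t • (Pi.single a 1 : {i : ι // i ≠ c} → F)) := by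
      intro y
      rw [tv_mulVec]
      rfl
    have hcomm : (dAt f' μ⁻¹ : GL {i : ι // i ≠ c} F) * tv (LinearMap.proj b) (t • (Pi.single a 1 : {i : ι // i ≠ c} → F)) h0 =
        tv (LinearMap.proj b) (t • (Pi.single a 1 : {i : ι // i ≠ c} → F)) h0 * dAt f' μ⁻¹ := by
      apply gl_ext
      intro y
      rw [gl_mulVec_mul, gl_mulVec_mul, hE, hE, dAt_mulVec, dAt_mulVec]
      simp only [Pi.add_apply, Pi.smul_apply, smul_eq_mul, Pi.single_apply, hfa, hfb.symm, hfa.symm, hfb, if_false,
        if_true, mul_zero, add_zero]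
      ext i
      simp only [Pi.add_apply, Pi.smul_apply, smul_eq_mul, Pi.single_apply]
      by_cases h5 : i = f'
      · simp [h5, hfb.symm, hfa.symm, hfa, hfb]
      · simp [h5, hfb.symm, hfa.symm, hfa, hfb]
    have h3 : Rel c (dg c f μ * ω * (dg c f μ)⁻¹ * ω⁻¹) 1 := by
      have := ((hrel.mul hω).mul hrel.inv).mul hω.inv
      rwa [hcomm, mul_inv_cancel_right, mul_inv_cancel] at this
    have hω'K : dg c f μ * ω * (dg c f μ)⁻¹ * ω⁻¹ ∈ K :=
      K.mul_mem (K.mul_mem (K.mul_mem (hK.dg _ _ _) hωK) (K.inv_mem (hK.dg _ _ _))) (K.inv_mem hωK)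
    obtain ⟨ψ, hψ, hψx⟩ := central hKS hω'K h3
    by_cases hψ0 : ψ = 0
    · -- `ω` commutes with the torus element
      have h4 : dg c f μ * ω = ω * dg c f μ := by
        have h5 : dg c f μ * ω * (dg c f μ)⁻¹ * ω⁻¹ = 1 := by
          apply gl_ext
          intro x
          rw [hψx, hψ0]
          simp
        rw [mul_inv_eq_one, mul_inv_eq_iff_eq_mul] at h5
        exact h5
      set ρ : Dual F (ι → F) := LinearMap.proj c ∘ₗ Matrix.toLin' (ω : Matrix ι ι F) with hρ
      have hρx : ∀ x, ρ x = ((ω : Matrix ι ι F) *ᵥ x) c := fun x => rfl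
      have h5 : ∀ x : ι → F, (μ : F) * ρ x = ρ x + ((μ : F) - 1) * x c * ρ (Pi.single c 1) +
          (((μ⁻¹ : Fˣ) : F) - 1) * x f * ρ (Pi.single f 1) := by
        intro x
        have h6 := congrFun (congrArg (fun A : GL ι F => (A : Matrix ι ι F) *ᵥ x) h4) c
        simp only [gl_mulVec_mul] at h6
        rw [dg_apply hcf, if_pos rfl] at h6
        exact h6.trans (covector_dg ρ hcf μ x)
      have hρk : ∀ k, k ≠ c → ρ (Pi.single k 1) = 0 := by
        intro k hk
        have h6 := h5 (Pi.single k 1)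
        by_cases hkf : k = f
        · subst hkf
          simp only [Pi.single_eq_same, Pi.single_eq_of_ne hk.symm, mul_zero, zero_mul, add_zero, mul_one] at h6
          have h7 : ((μ : F) - ((μ⁻¹ : Fˣ) : F)) * ρ (Pi.single k 1) = 0 := by linear_combination h6
          exact (mul_eq_zero.1 h7).resolve_left hμμ
        · simp only [Pi.single_eq_of_ne (Ne.symm hk), Pi.single_eq_of_ne (Ne.symm hkf), mul_zero, zero_mul, add_zero] at h6
          have h7 : ((μ : F) - 1) * ρ (Pi.single k 1) = 0 := by linear_combination h6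
          exact (mul_eq_zero.1 h7).resolve_left (sub_one_ne hμ)
      have hρ2 : ∀ x, ρ x = x c * ρ (Pi.single c 1) := by
        intro x
        rw [covector_apply, Finset.sum_eq_single c]
        · intro k _ hk
          rw [hρk k hk, mul_zero]
        · simp
      set κ₀ := ρ (Pi.single c 1) with hκ₀
      -- `ω` is the transvection times a diagonal matrix
      have hak : (a : ι) ≠ (b : ι) := fun h => hab (Subtype.ext h)
      have h0' : (LinearMap.proj (b : ι) : Dual F (ι → F)) (t • (Pi.single (a : ι) 1 : ι → F)) = 0 := by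
        simp [hak]
      have hωx : ∀ x, (ω : Matrix ι ι F) *ᵥ x = x + x (b : ι) • (t • (Pi.single (a : ι) 1 : ι → F)) +
          ((κ₀ - 1) * x c) • (Pi.single c 1 : ι → F) := by
        intro x
        ext i
        by_cases hi : i = c
        · subst hi
          have := hρ2 x
          rw [hρx] at this
          rw [this]
          simp [a.2.symm]
          ring
        · have h6 := hω x ⟨i, hi⟩
          rw [hE] at h6
          rw [h6]
          simp only [Pi.add_apply, Pi.smul_apply, smul_eq_mul]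
          rw [Pi.single_eq_of_ne hi, mul_zero, add_zero]
          by_cases h7 : i = a
          · subst h7
            simp
          · have h8 : (⟨i, hi⟩ : {i : ι // i ≠ c}) ≠ a := fun h => h7 (congrArg Subtype.val h)
            simp [h7, h8]
      have hκ0 : κ₀ ≠ 0 := by
        intro h6
        have h7 := hωx (Pi.single c 1)
        rw [h6] at h7
        have h8 : (ω : Matrix ι ι F) *ᵥ (Pi.single c 1) = 0 := by
          rw [h7]
          ext i
          by_cases hi : i = c
          · subst hi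
            simp [b.2.symm, a.2.symm]
          · simp [hi, b.2.symm]
        have h9 := mulVec_injective ω (h8.trans (Matrix.mulVec_zero _).symm)
        have h10 := congrFun h9 c
        simp at h10
      let uκ : Fˣ := Units.mk0 κ₀ hκ0
      have hdec : ω = tv (LinearMap.proj (b : ι)) (t • (Pi.single (a : ι) 1 : ι → F)) h0' * dAt c uκ := by
        apply gl_ext
        intro x
        rw [gl_mulVec_mul, tv_mulVec, dAt_mulVec, hωx]
        simp only [LinearMap.proj_apply, Pi.add_apply, Pi.smul_apply, smul_eq_mul, Pi.single_apply, b.2, if_false,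
          mul_zero, add_zero, uκ, Units.val_mk0]
        abel
      have hκ1 : uκ = 1 := by
        have h6 := (mem_specialLinear_iff ω).1 (hKS hωK)
        rw [hdec, Units.val_mul, Matrix.det_mul, dAt_det, (mem_specialLinear_iff _).1 (tv_mem_specialLinear _ _ h0'),
          one_mul] at h6
        exact Units.ext h6
      have hdA : dAt c uκ = (1 : GL ι F) := by
        apply gl_ext
        intro x
        rw [dAt_mulVec, hκ1]
        simp
      rw [hdA, mul_one] at hdec
      refine ⟨(a : ι), (b : ι), t, hak, ht, h0', ?_⟩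
      rw [← hdec]
      exact hωK
    · exact finish_center hK h6 hl one_ne_zero hψ0 (by simpa using hψ)

end Cfsg.Agent.Lib.Classical.C2.Hub
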