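/-
In odd characteristic: producing a non-monomial element fixing a coordinate line.
-/
import Mathlib
import Cfsg.Agent.Lib.Classical.C2.Hub

set_option autoImplicit false
set_option linter.unusedSectionVars false

namespace Cfsg.Agent.Lib.Classical.C2.Good

open scoped Matrix MatrixGroups
open Module Cfsg.Geo
open Cfsg.Agent.Lib.Classical.Geo.Basic Cfsg.Agent.Lib.Classical.Sub.Rat
open Cfsg.Agent.Lib.Classical.C2.Base Cfsg.Agent.Lib.Classical.C2.Finish Cfsg.Agent.Lib.Classical.C2.Even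

variable {ι : Type} [Fintype ι] [DecidableEq ι] {F : Type*} [Field F] {K : Subgroup (GL ι F)}

/-- A non-monomial element fixing a coordinate line. -/
def Good (K : Subgroup (GL ι F)) : Prop :=
  ∃ z ∈ K, ¬ IsMono z ∧ ∃ (c : ι) (κ : F), (z : Matrix ι ι F) *ᵥ (Pi.single c 1) = κ • (Pi.single c 1 : ι → F)

theorem HasMono.mem (hK : HasMono K) {m : GL ι F} (hm : IsMono m) (hd : (m : Matrix ι ι F).det = 1) : m ∈ K := by
  obtain ⟨σ, c, rfl⟩ := hm
  exact hK _ _ hd

theorem not_isMono_mul_left {m w : GL ι F} (hm : IsMono m) (hw : ¬ IsMono w) : ¬ IsMono (m * w) := by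
  intro h
  apply hw
  have := hm.inv.mul h
  rwa [inv_mul_cancel_left] at this

theorem not_isMono_inv {w : GL ι F} (hw : ¬ IsMono w) : ¬ IsMono w⁻¹ := by
  intro h
  apply hw
  have := h.inv
  rwa [inv_inv] at this

/-- **G1.** A coordinate column. -/
theorem good_of_column (hK : HasMono K) (h3 : 3 ≤ Fintype.card ι) {w : GL ι F} (hw : w ∈ K) (hwm : ¬ IsMono w) {c i : ι}
    {κ : F} (h : (w : Matrix ι ι F) *ᵥ (Pi.single c 1) = κ • (Pi.single i 1 : ι → F)) : Good K := by
  classical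
  by_cases hic : i = c
  · subst hic
    exact ⟨w, hw, hwm, i, κ, h⟩
  obtain ⟨f, hf⟩ := exists_notMem_finset ({i, c} : Finset ι) (by
    have := Finset.card_le_two (a := i) (b := c)
    omega)
  simp only [Finset.mem_insert, Finset.mem_singleton, not_or] at hf
  let D : Fˣ := Units.mk0 (-1) (by simp)
  let m : GL ι F := dAt f D * sw i c 1
  have hmm : IsMono m := (dAt_isMono _ _).mul (sw_isMono _ _ _)
  have hdet : (m : Matrix ι ι F).det = 1 := by
    rw [Units.val_mul, Matrix.det_mul, dAt_det, sw_det hic]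
    simp [D]
  have hmK : m ∈ K := HasMono.mem hK hmm hdet
  refine ⟨m * w, K.mul_mem hmK hw, not_isMono_mul_left hmm hwm, c, κ, ?_⟩
  rw [gl_mulVec_mul, h, Matrix.mulVec_smul]
  congr 1
  ext t
  have hmv : ∀ v, (m : Matrix ι ι F) *ᵥ v = ((dAt f D : GL ι F) : Matrix ι ι F) *ᵥ (((sw i c 1 : GL ι F) : Matrix ι ι F) *ᵥ v) :=
    fun v => gl_mulVec_mul _ _ _
  rw [hmv]
  simp only [dAt_apply, sw_apply hic]
  by_cases ht : t = f
  · subst ht
    simp [hf.1, hf.2]
  · by_cases ht2 : t = i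
    · subst ht2
      simp [ht, hic]
    · by_cases ht3 : t = c
      · subst ht3
        simp [ht, ht2]
      · simp [ht, ht2, ht3]

/-- A unit of order at least four. -/
theorem exists_unit_order [Fintype F] (hq : 5 ≤ Fintype.card F) :
    ∃ l : Fˣ, l ≠ 1 ∧ l ^ 2 ≠ 1 ∧ l ^ 3 ≠ 1 := by
  classical
  obtain ⟨g, hg⟩ := IsCyclic.exists_generator (α := Fˣ)
  have h1 : orderOf g = Fintype.card Fˣ := orderOf_eq_card_of_forall_mem_zpowers hg |>.trans Nat.card_eq_fintype_card
  rw [Fintype.card_units] at h1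
  have h2 : 4 ≤ orderOf g := by omega
  refine ⟨g, ?_, pow_ne_one_of_lt_orderOf (by norm_num) (by omega), pow_ne_one_of_lt_orderOf (by norm_num) (by omega)⟩
  have := pow_ne_one_of_lt_orderOf (x := g) (n := 1) (by norm_num) (by omega)
  simpa using this

/-- **G2.** A column with three zeros. -/
theorem good_sparse [Fintype F] (hq : 5 ≤ Fintype.card F) (hK : HasMono K) (h3 : 3 ≤ Fintype.card ι) {w : GL ι F} (hw : w ∈ K)
    (hwm : ¬ IsMono w) {c f₁ f₂ f₃ : ι} (h12 : f₁ ≠ f₂) (h13 : f₁ ≠ f₃) (h23 : f₂ ≠ f₃)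
    (hz₁ : ((w : Matrix ι ι F) *ᵥ (Pi.single c 1)) f₁ = 0) (hz₂ : ((w : Matrix ι ι F) *ᵥ (Pi.single c 1)) f₂ = 0)
    (hz₃ : ((w : Matrix ι ι F) *ᵥ (Pi.single c 1)) f₃ = 0) : Good K := by
  classical
  by_contra hG
  obtain ⟨l, hl1, hl2, hl3⟩ := exists_unit_order (F := F) hq
  set y := (w : Matrix ι ι F) *ᵥ (Pi.single c 1) with hy
  -- the conjugates are monomial
  have hmono : ∀ d : GL ι F, d ∈ K → (d : Matrix ι ι F) *ᵥ y = y → IsMono (w⁻¹ * d * w) := by
    intro d hd hdy
    by_contra hnm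
    apply hG
    refine ⟨_, K.mul_mem (K.mul_mem (K.inv_mem hw) hd) hw, hnm, c, 1, ?_⟩
    rw [gl_mulVec_mul, gl_mulVec_mul, ← hy, hdy, hy, inv_mulVec_mulVec, one_smul]
  obtain ⟨j, hj⟩ := exists_row_ne w f₁
  set u := (w : Matrix ι ι F) *ᵥ (Pi.single j 1) with hu
  have key : ∀ i, i ≠ f₁ → u i = 0 := by
    intro i hi
    by_contra hui
    obtain ⟨f', hf'1, hf'i, hf'y⟩ : ∃ f', f₁ ≠ f' ∧ i ≠ f' ∧ y f' = 0 := by
      by_cases h5 : i = f₂
      · subst h5
        exact ⟨f₃, h13, h23, hz₃⟩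
      · exact ⟨f₂, h12, h5, hz₂⟩
    have hfix : ∀ t : Fˣ, ((Base.dg f₁ f' t : GL ι F) : Matrix ι ι F) *ᵥ y = y := by
      intro t
      rw [dg_mulVec hf'1, hz₁, hf'y]
      simp
    have hm : ∀ t : Fˣ, IsMono (w⁻¹ * Base.dg f₁ f' t * w) := fun t => hmono _ (hK.dg _ _ _) (hfix t)
    have hcol : ∀ t : Fˣ, ((w⁻¹ * Base.dg f₁ f' t * w : GL ι F) : Matrix ι ι F) *ᵥ (Pi.single j 1) =
        ((w⁻¹ : GL ι F) : Matrix ι ι F) *ᵥ (((Base.dg f₁ f' t : GL ι F) : Matrix ι ι F) *ᵥ u) := by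
      intro t
      rw [gl_mulVec_mul, gl_mulVec_mul]
    set s : F := 1 + (l : F) + ((l⁻¹ : Fˣ) : F) with hs
    have hrel : -(u) + s • (((Base.dg f₁ f' l : GL ι F) : Matrix ι ι F) *ᵥ u) -
        s • (((Base.dg f₁ f' (l ^ 2) : GL ι F) : Matrix ι ι F) *ᵥ u) +
        ((Base.dg f₁ f' (l ^ 3) : GL ι F) : Matrix ι ι F) *ᵥ u = 0 := by
      ext t
      simp only [Pi.add_apply, Pi.sub_apply, Pi.neg_apply, Pi.smul_apply, smul_eq_mul, dg_apply hf'1, Pi.zero_apply]
      have hl0 := l.ne_zero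
      by_cases ht : t = f₁
      · subst ht
        simp only [if_true, hs, Units.val_pow_eq_pow_val, Units.val_inv_eq_inv_val]
        field_simp
        ring
      · by_cases ht2 : t = f'
        · subst ht2
          simp only [ht, if_false, if_true, hs, Units.val_pow_eq_pow_val, Units.val_inv_eq_inv_val, inv_pow]
          field_simp
          ring
        · simp only [ht, ht2, if_false]
          ring
    have hrel2 : -(Pi.single j 1 : ι → F) + s • (((w⁻¹ * Base.dg f₁ f' l * w : GL ι F) : Matrix ι ι F) *ᵥ (Pi.single j 1)) -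
        s • (((w⁻¹ * Base.dg f₁ f' (l ^ 2) * w : GL ι F) : Matrix ι ι F) *ᵥ (Pi.single j 1)) +
        ((w⁻¹ * Base.dg f₁ f' (l ^ 3) * w : GL ι F) : Matrix ι ι F) *ᵥ (Pi.single j 1) = 0 := by
      apply mulVec_injective w
      beta_reduce
      rw [hcol, hcol, hcol, Matrix.mulVec_add, Matrix.mulVec_sub, Matrix.mulVec_add, Matrix.mulVec_neg,
        Matrix.mulVec_smul, Matrix.mulVec_smul, mulVec_inv_mulVec, mulVec_inv_mulVec, mulVec_inv_mulVec, ← hu, hrel,
        Matrix.mulVec_zero]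
    -- a coordinate does not vanish
    have hex : ∃ t : Fˣ, t ≠ 1 ∧ (((w⁻¹ * Base.dg f₁ f' t * w : GL ι F) : Matrix ι ι F) *ᵥ (Pi.single j 1)) j ≠ 0 := by
      by_contra hcon
      push Not at hcon
      have h5 := congrFun hrel2 j
      simp only [Pi.add_apply, Pi.sub_apply, Pi.neg_apply, Pi.smul_apply, smul_eq_mul, Pi.zero_apply,
        hcon l hl1, hcon _ hl2, hcon _ hl3, Pi.single_eq_same] at h5
      have : (1 : F) = 0 := by linear_combination - h5
      exact one_ne_zero this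
    obtain ⟨t, ht1, ht⟩ := hex
    obtain ⟨i', κ, hκ, he⟩ := (hm t).single j
    have hi' : i' = j := by
      by_contra hne
      apply ht
      rw [he]
      simp [Ne.symm hne]
    subst hi'
    have h6 : ((Base.dg f₁ f' t : GL ι F) : Matrix ι ι F) *ᵥ u = κ • u := by
      apply mulVec_injective (w⁻¹ : GL ι F)
      beta_reduce
      rw [← hcol, he, Matrix.mulVec_smul, hu, inv_mulVec_mulVec]
    have h7 := congrFun h6 f₁
    have h8 := congrFun h6 i
    rw [dg_apply hf'1, if_pos rfl, Pi.smul_apply, smul_eq_mul] at h7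
    rw [dg_apply hf'1, if_neg hi, if_neg hf'i, Pi.smul_apply, smul_eq_mul] at h8
    have h9 : (t : F) = κ := mul_right_cancel₀ hj h7
    have h10 : κ = 1 := by
      have : (κ - 1) * u i = 0 := by linear_combination - h8
      have := (mul_eq_zero.1 this).resolve_right hui
      linear_combination this
    apply ht1
    apply Units.ext
    rw [h9, h10, Units.val_one]
  apply hG
  refine good_of_column hK h3 hw hwm (c := j) (i := f₁) (κ := u f₁) ?_
  ext t
  by_cases ht : t = f₁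
  · subst ht
    simp [hu]
  · change u t = _
    rw [key t ht]
    simp [ht]

/-- Three vectors in a plane. -/
theorem three_in_two {P Q T₁ T₂ T₃ : ι → F} {A₁ A₂ A₃ B₁ B₂ B₃ : F} {i₁ i₂ i₃ : ι} (h₁ : T₁ = A₁ • P + B₁ • Q)
    (h₂ : T₂ = A₂ • P + B₂ • Q) (h₃ : T₃ = A₃ • P + B₃ • Q) (h12 : T₁ i₂ = 0) (h13 : T₁ i₃ = 0) (h21 : T₂ i₁ = 0)
    (h23 : T₂ i₃ = 0) (h31 : T₃ i₁ = 0) (h32 : T₃ i₂ = 0) : T₁ i₁ * T₂ i₂ * T₃ i₃ = 0 := by
  have hdet : T₁ i₁ * T₂ i₂ * T₃ i₃ - T₁ i₁ * T₂ i₃ * T₃ i₂ - T₁ i₂ * T₂ i₁ * T₃ i₃ + T₁ i₂ * T₂ i₃ * T₃ i₁ +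
      T₁ i₃ * T₂ i₁ * T₃ i₂ - T₁ i₃ * T₂ i₂ * T₃ i₁ = 0 := by
    rw [h₁, h₂, h₃]
    simp only [Pi.add_apply, Pi.smul_apply, smul_eq_mul]
    ring
  rw [h12, h13, h21, h23, h31, h32] at hdet
  linear_combination hdet

/-- A monomial matrix with rank-two difference from the identity moves few coordinates. -/
theorem few_moved {z : GL ι F} (hz : IsMono z) {P Q : ι → F}
    (hzPQ : ∀ x, ∃ A B : F, (z : Matrix ι ι F) *ᵥ x - x = A • P + B • Q) (M : Finset ι)
    (hM : ∀ i ∈ M, (z : Matrix ι ι F) *ᵥ (Pi.single i 1) ≠ (Pi.single i 1 : ι → F)) :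
    M.card ≤ 6 := by
  classical
  obtain ⟨p, r, rfl⟩ := hz
  by_contra hcon
  push Not at hcon
  -- the differences
  let T : ι → ι → F := fun i => ((mono p r : GL ι F) : Matrix ι ι F) *ᵥ (Pi.single i 1) - (Pi.single i 1 : ι → F)
  have hT : ∀ i t, t ≠ i → t ≠ p i → T i t = 0 := by
    intro i t h1 h2
    simp only [T, mono_single, mul_one, Pi.sub_apply]
    rw [Pi.single_eq_of_ne h2, Pi.single_eq_of_ne h1, sub_zero]
  have hTi : ∀ i ∈ M, T i i ≠ 0 := by
    intro i hi h0
    replace hi := hM i hi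
    simp only [mono_single, mul_one] at hi
    simp only [T, mono_single, mul_one, Pi.sub_apply, Pi.single_eq_same] at h0
    by_cases hp : p i = i
    · rw [hp, Pi.single_eq_same] at h0
      apply hi
      rw [hp]
      have : (r i : F) = 1 := by linear_combination h0
      rw [this]
    · rw [Pi.single_eq_of_ne (Ne.symm hp)] at h0
      simp at h0
  have hne : M.Nonempty := Finset.card_pos.1 (by omega)
  obtain ⟨i₁, hi₁⟩ := hne
  set M₁ := M \ {i₁, p i₁, p⁻¹ i₁} with hM₁
  have hc₁ : 4 ≤ M₁.card := by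
    rw [hM₁]
    have := Finset.le_card_sdiff ({i₁, p i₁, p⁻¹ i₁} : Finset ι) M
    have h5 := Finset.card_le_three (a := i₁) (b := p i₁) (c := p⁻¹ i₁)
    omega
  obtain ⟨i₂, hi₂⟩ := Finset.card_pos.1 (by omega : 0 < M₁.card)
  set M₂ := M₁ \ {i₂, p i₂, p⁻¹ i₂} with hM₂
  have hc₂ : 1 ≤ M₂.card := by
    rw [hM₂]
    have := Finset.le_card_sdiff ({i₂, p i₂, p⁻¹ i₂} : Finset ι) M₁
    have h5 := Finset.card_le_three (a := i₂) (b := p i₂) (c := p⁻¹ i₂)
    omega
  obtain ⟨i₃, hi₃⟩ := Finset.card_pos.1 (by omega : 0 < M₂.card)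
  simp only [hM₁, Finset.mem_sdiff, Finset.mem_insert, Finset.mem_singleton, not_or] at hi₂
  simp only [hM₂, hM₁, Finset.mem_sdiff, Finset.mem_insert, Finset.mem_singleton, not_or] at hi₃
  obtain ⟨A₁, B₁, h₁⟩ := hzPQ (Pi.single i₁ 1)
  obtain ⟨A₂, B₂, h₂⟩ := hzPQ (Pi.single i₂ 1)
  obtain ⟨A₃, B₃, h₃⟩ := hzPQ (Pi.single i₃ 1)
  have hinv : ∀ a b : ι, b ≠ p⁻¹ a → a ≠ p b := by
    intro a b h1 h2
    apply h1
    rw [h2]
    simp
  have hfin := three_in_two (i₁ := i₁) (i₂ := i₂) (i₃ := i₃) h₁ h₂ h₃ (hT _ _ hi₂.2.1 hi₂.2.2.1) (hT _ _ hi₃.1.2.1 hi₃.1.2.2.1)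
    (hT _ _ (Ne.symm hi₂.2.1) (hinv _ _ hi₂.2.2.2)) (hT _ _ hi₃.2.1 hi₃.2.2.1)
    (hT _ _ (Ne.symm hi₃.1.2.1) (hinv _ _ hi₃.1.2.2.2)) (hT _ _ (Ne.symm hi₃.2.1) (hinv _ _ hi₃.2.2.2))
  exact mul_ne_zero (mul_ne_zero (hTi _ hi₁) (hTi _ hi₂.1)) (hTi _ hi₃.1.1) hfin

/-- **G3.** A column with a zero. -/
theorem good_one_zero [Fintype F] (h2 : (2 : F) ≠ 0) (hq : 5 ≤ Fintype.card F) (hK : HasMono K) (h13 : 13 ≤ Fintype.card ι)
    {x : GL ι F} (hx : x ∈ K) (hxm : ¬ IsMono x) {c b : ι} (hb : ((x : Matrix ι ι F) *ᵥ (Pi.single c 1)) b = 0) : Good K := by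
  classical
  by_contra hG
  set y := (x : Matrix ι ι F) *ᵥ (Pi.single c 1) with hy
  have hy0 : y ≠ 0 := by
    intro h0
    have := mulVec_injective x (h0.trans (Matrix.mulVec_zero _).symm)
    have h3 := congrFun this c
    simp at h3
  obtain ⟨a, ha⟩ := Function.ne_iff.1 hy0
  simp only [Pi.zero_apply] at ha
  by_cases h1 : ∀ i, i ≠ a → y i = 0
  · apply hG
    refine good_of_column hK (by omega) hx hxm (c := c) (i := a) (κ := y a) ?_
    ext t
    by_cases ht : t = a
    · subst ht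
      simp [hy]
    · change y t = _
      rw [h1 t ht]
      simp [ht]
  push Not at h1
  obtain ⟨a', haa', ha'⟩ := h1
  have hab : a ≠ b := by
    rintro rfl
    exact ha hb
  have ha'b : a' ≠ b := by
    rintro rfl
    exact ha' hb
  have haa'2 : a ≠ a' := Ne.symm haa'
  let α : Fˣ := Units.mk0 (y a' / y a) (div_ne_zero ha' ha)
  have hα : (α : F) = y a' / y a := rfl
  let D : Fˣ := Units.mk0 (-1) (by simp)
  let g : GL ι F := sw a a' α * dAt b D
  have hgm : IsMono g := (sw_isMono _ _ _).mul (dAt_isMono _ _)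
  have hgdet : (g : Matrix ι ι F).det = 1 := by
    rw [Units.val_mul, Matrix.det_mul, dAt_det, sw_det haa'2]
    simp [D]
  have hgK : g ∈ K := HasMono.mem hK hgm hgdet
  have hgx : ∀ t : ι → F, (g : Matrix ι ι F) *ᵥ t - t = (((α⁻¹ : Fˣ) : F) * t a' - t a) • ((Pi.single a 1 : ι → F) - (α : F) • Pi.single a' 1) +
      ((-2) * t b) • (Pi.single b 1 : ι → F) := by
    intro t
    rw [gl_mulVec_mul, dAt_mulVec, sw_mulVec haa'2]
    ext i
    simp only [Pi.sub_apply, Pi.add_apply, Pi.smul_apply, smul_eq_mul, D, Units.val_mk0, Pi.single_apply, hab, ha'b, if_false,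
      mul_zero, add_zero]
    have hal := α.ne_zero
    rw [Units.val_inv_eq_inv_val]
    by_cases hia : i = a
    · subst hia
      simp [haa'2, hab]
    · by_cases hia' : i = a'
      · subst hia'
        simp [hia, ha'b]
        field_simp
        ring
      · by_cases hib : i = b
        · subst hib
          simp [hia, hia']
          ring
        · simp [hia, hia', hib]
  have hgy : (g : Matrix ι ι F) *ᵥ y = y := by
    have h3 := hgx y
    rw [hb, mul_zero, zero_smul, add_zero, Units.val_inv_eq_inv_val, hα] at h3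
    have h4 : (y a' / y a)⁻¹ * y a' - y a = 0 := by
      field_simp
      ring
    rw [h4, zero_smul] at h3
    exact sub_eq_zero.1 h3
  have hgb : (g : Matrix ι ι F) *ᵥ (Pi.single b 1) = - (Pi.single b 1 : ι → F) := by
    have h3 := hgx (Pi.single b 1)
    simp only [Pi.single_eq_same, Pi.single_eq_of_ne hab, Pi.single_eq_of_ne ha'b, mul_zero, sub_zero, zero_smul,
      zero_add] at h3
    have h4 : (g : Matrix ι ι F) *ᵥ (Pi.single b 1) = (Pi.single b 1 : ι → F) + ((-2 : F) * 1) • (Pi.single b 1 : ι → F) :=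
      eq_add_of_sub_eq' h3
    rw [h4]
    ext i
    simp only [Pi.add_apply, Pi.smul_apply, smul_eq_mul, Pi.neg_apply]
    ring
  set z : GL ι F := x⁻¹ * g * x with hzdef
  have hzK : z ∈ K := K.mul_mem (K.mul_mem (K.inv_mem hx) hgK) hx
  have hzm : IsMono z := by
    by_contra hnm
    apply hG
    refine ⟨z, hzK, hnm, c, 1, ?_⟩
    rw [hzdef, gl_mulVec_mul, gl_mulVec_mul, ← hy, hgy, hy, inv_mulVec_mulVec, one_smul]
  set v := ((x⁻¹ : GL ι F) : Matrix ι ι F) *ᵥ (Pi.single b 1) with hv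
  have hzv : (z : Matrix ι ι F) *ᵥ v = - v := by
    rw [hzdef, gl_mulVec_mul, gl_mulVec_mul, hv, mulVec_inv_mulVec, hgb, Matrix.mulVec_neg]
  -- few coordinates are moved
  set M := Finset.univ.filter (fun i => (z : Matrix ι ι F) *ᵥ (Pi.single i 1) ≠ (Pi.single i 1 : ι → F)) with hM
  have hfew := few_moved (P := ((x⁻¹ : GL ι F) : Matrix ι ι F) *ᵥ ((Pi.single a 1 : ι → F) - (α : F) • Pi.single a' 1)) (Q := v) hzm (by
    intro t
    have h3 := hgx ((x : Matrix ι ι F) *ᵥ t)
    have h4 : (z : Matrix ι ι F) *ᵥ t - t = ((x⁻¹ : GL ι F) : Matrix ι ι F) *ᵥ ((g : Matrix ι ι F) *ᵥ ((x : Matrix ι ι F) *ᵥ t) - ((x : Matrix ι ι F) *ᵥ t)) := by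
      rw [Matrix.mulVec_sub, inv_mulVec_mulVec, hzdef, gl_mulVec_mul, gl_mulVec_mul]
    refine ⟨((α⁻¹ : Fˣ) : F) * ((x : Matrix ι ι F) *ᵥ t) a' - ((x : Matrix ι ι F) *ᵥ t) a, (-2) * ((x : Matrix ι ι F) *ᵥ t) b, ?_⟩
    rw [h4, h3, Matrix.mulVec_add, Matrix.mulVec_smul, Matrix.mulVec_smul]) M (by
    intro i hi
    simpa [hM] using hi)
  have hfix : ∀ i, i ∉ M → v i = 0 := by
    intro i hi
    simp only [hM, Finset.mem_filter, Finset.mem_univ, true_and, not_not] at hi
    -- the `i`-th coordinate of `z v` is that of `v`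
    obtain ⟨p, r, hpr⟩ := hzm
    rw [hpr, mono_single, mul_one] at hi
    have hpi : p i = i := by
      by_contra hne
      have h3 := congrFun hi i
      rw [Pi.single_eq_same, Pi.single_eq_of_ne (Ne.symm hne)] at h3
      exact zero_ne_one h3
    have hri : (r i : F) = 1 := by
      have h3 := congrFun hi i
      rw [hpi, Pi.single_eq_same, Pi.single_eq_same] at h3
      exact h3
    have h3 := congrFun hzv i
    rw [hpr, mono_apply, Pi.neg_apply] at h3
    have h4 : p⁻¹ i = i := by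
      rw [Equiv.Perm.inv_eq_iff_eq]
      exact hpi.symm
    rw [h4, hri, one_mul] at h3
    have h5 : (2 : F) * v i = 0 := by linear_combination h3
    exact (mul_eq_zero.1 h5).resolve_left h2
  -- three zeros in the column `b` of the inverse
  have hcompl : 3 ≤ (Mᶜ).card := by
    rw [Finset.card_compl]
    omega
  obtain ⟨f₁, f₂, f₃, hf₁, hf₂, hf₃, h12, h13', h23⟩ := Finset.two_lt_card_iff.1 (by omega : 2 < (Mᶜ).card)
  rw [Finset.mem_compl] at hf₁ hf₂ hf₃
  exact hG (good_sparse hq hK (by omega) (K.inv_mem hx) (not_isMono_inv hxm) h12 h13' h23 (hfix _ hf₁) (hfix _ hf₂)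
    (hfix _ hf₃))

/-- The permutation part of a monomial matrix is unique. -/
theorem mono_perm_unique {σ τ : Equiv.Perm ι} {c d : ι → Fˣ} (h : (mono σ c : GL ι F) = mono τ d) : σ = τ := by
  ext j
  by_contra hne
  have h1 := congrArg (fun g : GL ι F => (g : Matrix ι ι F) *ᵥ (Pi.single j 1)) h
  simp only [mono_single, mul_one] at h1
  have h2 := congrFun h1 (σ j)
  rw [Pi.single_eq_same, Pi.single_eq_of_ne hne] at h2
  exact (c j).ne_zero h2

/-- The monomial matrix of a permutation fixing the vector `y`. -/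
noncomputable def gy (y : ι → F) (hy : ∀ i, y i ≠ 0) (σ : Equiv.Perm ι) : GL ι F :=
  mono σ (fun a => Units.mk0 (y (σ a) / y a) (div_ne_zero (hy _) (hy _)))

theorem gy_fix (y : ι → F) (hy : ∀ i, y i ≠ 0) (σ : Equiv.Perm ι) : ((gy y hy σ : GL ι F) : Matrix ι ι F) *ᵥ y = y := by
  ext i
  rw [gy, mono_apply]
  have h1 : σ (σ⁻¹ i) = i := σ.apply_symm_apply i
  simp only [Units.val_mk0, h1]
  have := hy (σ⁻¹ i)
  field_simp

theorem gy_mul (y : ι → F) (hy : ∀ i, y i ≠ 0) (σ τ : Equiv.Perm ι) : gy y hy (σ * τ) = gy y hy σ * gy y hy τ := by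
  rw [gy, gy, gy, mono_mul]
  congr 1
  ext i
  simp only [Equiv.Perm.mul_apply, Units.val_mk0, Units.val_mul]
  have h1 := hy (τ i)
  have h2 := hy i
  field_simp

theorem gy_det (y : ι → F) (hy : ∀ i, y i ≠ 0) (σ : Equiv.Perm ι) :
    ((gy y hy σ : GL ι F) : Matrix ι ι F).det = ((Equiv.Perm.sign σ : ℤ) : F) := by
  rw [gy, mono_det]
  simp only [Units.val_mk0]
  rw [Finset.prod_div_distrib, Equiv.prod_comp σ y, div_self (Finset.prod_ne_zero_iff.2 fun i _ => hy i), mul_one]

/-- **G4.** A column without zeros. -/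
theorem good_dense (hK : HasMono K) (h13 : 13 ≤ Fintype.card ι) {x : GL ι F} (hx : x ∈ K) {c : ι}
    (hy : ∀ i, ((x : Matrix ι ι F) *ᵥ (Pi.single c 1)) i ≠ 0) : Good K := by
  classical
  by_contra hG
  set y := (x : Matrix ι ι F) *ᵥ (Pi.single c 1) with hydef
  let zf : alternatingGroup ι → GL ι F := fun s => x⁻¹ * gy y hy s.1 * x
  have hzfK : ∀ s : alternatingGroup ι, gy y hy (s : Equiv.Perm ι) ∈ K := by
    intro s
    refine HasMono.mem hK ⟨_, _, rfl⟩ ?_
    rw [gy_det, Equiv.Perm.mem_alternatingGroup.1 s.2]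
    simp
  have hzfc : ∀ s, (zf s : Matrix ι ι F) *ᵥ (Pi.single c 1) = (Pi.single c 1 : ι → F) := by
    intro s
    simp only [zf]
    rw [gl_mulVec_mul, gl_mulVec_mul, ← hydef, gy_fix, hydef, inv_mulVec_mulVec]
  have hzfm : ∀ s, IsMono (zf s) := by
    intro s
    by_contra hnm
    apply hG
    refine ⟨zf s, K.mul_mem (K.mul_mem (K.inv_mem hx) (hzfK s)) hx, hnm, c, 1, ?_⟩
    rw [hzfc, one_smul]
  choose P R hPR using hzfm
  have hzfmul : ∀ s t, zf (s * t) = zf s * zf t := by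
    intro s t
    simp only [zf, Subgroup.coe_mul, gy_mul]
    group
  have hPmul : ∀ s t, P (s * t) = P s * P t := by
    intro s t
    have h1 := hzfmul s t
    rw [hPR, hPR s, hPR t, mono_mul] at h1
    exact mono_perm_unique h1
  let φ : alternatingGroup ι →* Equiv.Perm ι := MonoidHom.mk' P hPmul
  have hφ : ∀ s, φ s = P s := fun s => rfl
  have hPc : ∀ s, P s c = c := by
    intro s
    have h1 := hzfc s
    rw [hPR, mono_single, mul_one] at h1
    by_contra hne
    have h2 := congrFun h1 (P s c)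
    rw [Pi.single_eq_same, Pi.single_eq_of_ne hne] at h2
    exact (R s c).ne_zero h2
  haveI : IsSimpleGroup (alternatingGroup ι) := alternatingGroup.isSimpleGroup (by
    rw [Nat.card_eq_fintype_card]
    omega)
  have hcardS : Fintype.card {i : ι // i ≠ c} = Fintype.card ι - 1 := by
    have := Fintype.card_subtype_compl (fun i : ι => i = c)
    rw [Fintype.card_subtype_eq] at this
    exact this
  rcases IsSimpleGroup.eq_bot_or_eq_top_of_normal φ.ker inferInstance with h1 | h1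
  · -- the action is faithful: a contradiction by counting
    have hinj : Function.Injective φ := (MonoidHom.ker_eq_bot_iff φ).1 h1
    have hp : ∀ s (i : ι), (P s i ≠ c ↔ i ≠ c) := by
      intro s i
      rw [not_iff_not]
      constructor
      · intro h
        apply (P s).injective
        rw [h, hPc]
      · rintro rfl
        exact hPc s
    let ψ : alternatingGroup ι → Equiv.Perm {i : ι // i ≠ c} := fun s => (P s).subtypePerm (hp s)
    have hψ : Function.Injective ψ := by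
      intro s t hst
      apply hinj
      rw [hφ, hφ]
      ext i
      by_cases hi : i = c
      · subst hi
        rw [hPc, hPc]
      · have h2 := congrArg (fun e : Equiv.Perm {i : ι // i ≠ c} => ((e ⟨i, hi⟩ : {i : ι // i ≠ c}) : ι)) hst
        exact h2
    have h2 := Fintype.card_le_of_injective ψ hψ
    rw [Fintype.card_perm, hcardS] at h2
    haveI : Nontrivial ι := Fintype.one_lt_card_iff_nontrivial.1 (by omega)
    have h3 := two_mul_card_alternatingGroup (α := ι)
    rw [Fintype.card_perm] at h3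
    obtain ⟨n, hn⟩ : ∃ n, Fintype.card ι = n + 1 := ⟨Fintype.card ι - 1, by omega⟩
    rw [hn, Nat.factorial_succ] at h3
    rw [hn, Nat.add_sub_cancel] at h2
    have h4 : (n + 1) * n.factorial ≤ 2 * n.factorial := by
      rw [← h3]
      omega
    have h5 : n + 1 ≤ 2 := Nat.le_of_mul_le_mul_right h4 (Nat.factorial_pos n)
    omega
  · -- the action is trivial: a contradiction from non-commutativity
    have hP1 : ∀ s, P s = 1 := by
      intro s
      have : s ∈ φ.ker := by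
        rw [h1]
        exact Subgroup.mem_top _
      exact this
    have hcomm : ∀ s t : alternatingGroup ι, gy y hy (s : Equiv.Perm ι) * gy y hy (t : Equiv.Perm ι) = gy y hy (t : Equiv.Perm ι) * gy y hy (s : Equiv.Perm ι) := by
      intro s t
      have h2 : zf s * zf t = zf t * zf s := by
        rw [hPR s, hPR t, hP1, hP1, mono_mul, mono_mul]
        congr 1
        ext i
        simp [mul_comm]
      simp only [zf] at h2
      have h3 : x⁻¹ * (gy y hy s.1 * gy y hy t.1) * x = x⁻¹ * (gy y hy t.1 * gy y hy s.1) * x := by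
        calc x⁻¹ * (gy y hy s.1 * gy y hy t.1) * x = x⁻¹ * gy y hy s.1 * x * (x⁻¹ * gy y hy t.1 * x) := by group
          _ = x⁻¹ * gy y hy t.1 * x * (x⁻¹ * gy y hy s.1 * x) := h2
          _ = _ := by group
      exact mul_left_cancel (mul_right_cancel h3)
    -- four points
    obtain ⟨a, ha⟩ := exists_notMem_finset (∅ : Finset ι) (by simp; omega)
    obtain ⟨b, hb⟩ := exists_notMem_finset ({a} : Finset ι) (by simp; omega)
    obtain ⟨d, hd⟩ := exists_notMem_finset ({a, b} : Finset ι) (by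
      have := Finset.card_le_two (a := a) (b := b)
      omega)
    obtain ⟨e, he⟩ := exists_notMem_finset ({a, b, d} : Finset ι) (by
      have := Finset.card_le_three (a := a) (b := b) (c := d)
      omega)
    simp only [Finset.mem_insert, Finset.mem_singleton, not_or] at hb hd he
    have hab : a ≠ b := Ne.symm hb
    have had : a ≠ d := Ne.symm hd.1
    have hae : a ≠ e := Ne.symm he.1
    have hbd : b ≠ d := Ne.symm hd.2
    have hbe : b ≠ e := Ne.symm he.2.1
    have hde : d ≠ e := Ne.symm he.2.2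
    let σ : Equiv.Perm ι := Equiv.swap a b * Equiv.swap a d
    let τ : Equiv.Perm ι := Equiv.swap a b * Equiv.swap a e
    have hσ : σ ∈ alternatingGroup ι := by
      rw [Equiv.Perm.mem_alternatingGroup, map_mul, Equiv.Perm.sign_swap hab, Equiv.Perm.sign_swap had]
      rfl
    have hτ : τ ∈ alternatingGroup ι := by
      rw [Equiv.Perm.mem_alternatingGroup, map_mul, Equiv.Perm.sign_swap hab, Equiv.Perm.sign_swap hae]
      rfl
    have h2 := hcomm ⟨σ, hσ⟩ ⟨τ, hτ⟩
    simp only [gy, mono_mul] at h2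
    have h3 := mono_perm_unique h2
    have h4 := congrArg (fun p : Equiv.Perm ι => p a) h3
    simp only [Equiv.Perm.mul_apply, σ, τ, Equiv.swap_apply_left] at h4
    rw [Equiv.swap_apply_of_ne_of_ne hae.symm hbe.symm, Equiv.swap_apply_of_ne_of_ne hae.symm hde.symm] at h4
    rw [Equiv.swap_apply_of_ne_of_ne had.symm hbd.symm, Equiv.swap_apply_of_ne_of_ne had.symm hde] at h4
    exact hde ((Equiv.swap a b).injective h4.symm)

/-- **Good.** Any non-monomial element gives a good element in odd characteristic. -/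
theorem good_main [Fintype F] (h2 : (2 : F) ≠ 0) (hq : 5 ≤ Fintype.card F) (hK : HasMono K) (h13 : 13 ≤ Fintype.card ι)
    {x : GL ι F} (hx : x ∈ K) (hxm : ¬ IsMono x) : Good K := by
  classical
  obtain ⟨c, -, -, -, -, -⟩ := exists_column_two hxm
  by_cases hb : ∃ b, ((x : Matrix ι ι F) *ᵥ (Pi.single c 1)) b = 0
  · obtain ⟨b, hb⟩ := hb
    exact good_one_zero h2 hq hK h13 hx hxm hb
  · push Not at hb
    exact good_dense hK h13 hx hb

/-- The monomial group in odd characteristic. -/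
theorem odd_main [Fintype F] (h2 : (2 : F) ≠ 0) (hq : 5 ≤ Fintype.card F) (hK : HasMono K) (h13 : 13 ≤ Fintype.card ι)
    (hKS : K ≤ specialLinear ι F) {x : GL ι F} (hx : x ∈ K) (hxm : ¬ IsMono x) : Elem K := by
  obtain ⟨z, hzK, hzm, c, κ, hz⟩ := good_main h2 hq hK h13 hx hxm
  exact Hub.hub h2 hq h13 hK hKS hzK hzm hz

/-- **The case of blocks of size one.** -/
theorem mono_main [Fintype F] (hq : 5 ≤ Fintype.card F) (hK : HasMono K) (h13 : 13 ≤ Fintype.card ι)
    (hKS : K ≤ specialLinear ι F) {x : GL ι F} (hx : x ∈ K) (hxm : ¬ IsMono x) : specialLinear ι F ≤ K := by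
  refine sl_le_of_elem hK (by omega) ?_
  by_cases h2 : (2 : F) = 0
  · refine Even.even_main h2 ?_ h13 hK hx hxm
    -- a field of even order with at least five elements has at least eight
    by_contra hlt
    have h3 : Fintype.card F ≤ 7 := by omega
    haveI := CharTwo.of_one_ne_zero_of_two_eq_zero (one_ne_zero' F) h2
    obtain ⟨n, hn, hc⟩ := FiniteField.card F 2
    have h4 : 2 ^ (n : ℕ) ≤ 7 := by
      rw [← hc]
      exact h3
    have h5 : (n : ℕ) ≤ 2 := by
      by_contra h6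
      have : 2 ^ 3 ≤ 2 ^ (n : ℕ) := Nat.pow_le_pow_right (by norm_num) (by omega)
      omega
    have h6 : 2 ^ (n : ℕ) ≤ 2 ^ 2 := Nat.pow_le_pow_right (by norm_num) h5
    omega
  · exact odd_main h2 hq hK h13 hKS hx hxm

end Cfsg.Agent.Lib.Classical.C2.Good
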