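/-
Overgroups of the stabiliser of a decomposition into blocks of dimension at least two.
-/
import Mathlib
import Cfsg.Agent.Lib.Classical.C2.Good

set_option autoImplicit false
set_option linter.unusedSectionVars false

namespace Cfsg.Agent.Lib.Classical.C2.Blocks

open scoped Matrix MatrixGroups
open Module Cfsg.Geo
open Cfsg.Agent.Lib.Classical.Geo.Basic Cfsg.Agent.Lib.Classical.Sub.Rat
open Cfsg.Agent.Lib.Classical.C2.Base Cfsg.Agent.Lib.Classical.C2.Finish

variable {τ κ : Type} [Fintype τ] [DecidableEq τ] [Fintype κ] [DecidableEq κ] {F : Type*} [Field F]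
  {K : Subgroup (GL (τ × κ) F)}

/-- Vectors in a block. -/
def InB (l : τ) (v : τ × κ → F) : Prop := ∀ i : τ × κ, i.1 ≠ l → v i = 0

/-- Covectors of a block. -/
def CoB (l : τ) (θ : Dual F (τ × κ → F)) : Prop := ∀ i : τ × κ, i.1 ≠ l → θ (Pi.single i 1) = 0

/-- The overgroup condition. -/
def HasBlocks (K : Subgroup (GL (τ × κ) F)) : Prop :=
  ∀ g : GL (τ × κ) F, (∃ π : Equiv.Perm τ, ∀ l v, InB l v → InB (π l) ((g : Matrix (τ × κ) (τ × κ) F) *ᵥ v)) →
    ((g : Matrix (τ × κ) (τ × κ) F)).det = 1 → g ∈ K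

theorem CoB.apply_eq_zero {l k : τ} {θ : Dual F (τ × κ → F)} (hθ : CoB l θ) {v : τ × κ → F} (hv : InB k v) (hkl : k ≠ l) :
    θ v = 0 := by
  rw [covector_apply]
  refine Finset.sum_eq_zero fun i _ => ?_
  by_cases hi : i.1 = l
  · rw [hv i (by rw [hi]; exact hkl.symm), zero_mul]
  · rw [hθ i hi, mul_zero]

theorem inB_smul_single (i : τ × κ) (t : F) : InB i.1 (t • (Pi.single i 1 : τ × κ → F)) := by
  intro j hj
  have : j ≠ i := fun h => hj (by rw [h])
  simp [this]

theorem coB_proj (i : τ × κ) : CoB (F := F) i.1 (LinearMap.proj i) := by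
  intro j hj
  have : i ≠ j := fun h => hj (by rw [h])
  simp [this]

theorem exists_other (hκ : 2 ≤ Fintype.card κ) (p : τ × κ) : ∃ q : τ × κ, q.1 = p.1 ∧ q ≠ p := by
  classical
  obtain ⟨v, hv⟩ := exists_notMem_finset ({p.2} : Finset κ) (by simp; omega)
  simp only [Finset.mem_singleton] at hv
  exact ⟨(p.1, v), rfl, fun h => hv (congrArg Prod.snd h)⟩

theorem inB_one (i : τ × κ) : InB i.1 (Pi.single i 1 : τ × κ → F) := by
  intro j hj
  have : j ≠ i := fun h => hj (by rw [h])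
  simp [this]

/-- The block transvections. -/
theorem block_tv (hK : HasBlocks K) {l : τ} {c : τ × κ → F} {θ : Dual F (τ × κ → F)} (hc : InB l c) (hθ : CoB l θ)
    (h0 : θ c = 0) : InM K c θ := by
  refine ⟨h0, hK _ ⟨1, ?_⟩ ((mem_specialLinear_iff _).1 (tv_mem_specialLinear _ _ h0))⟩
  intro k v hv i hi
  change i.1 ≠ k at hi
  rw [tv_mulVec, Pi.add_apply, hv i hi, zero_add, Pi.smul_apply, smul_eq_mul]
  by_cases hkl : k = l
  · subst hkl
    rw [hc i hi, mul_zero]
  · rw [hθ.apply_eq_zero hv hkl, zero_mul]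

/-- Coordinate block transvections. -/
theorem block_tv_single (hK : HasBlocks K) {q p : τ × κ} (h1 : q.1 = p.1) (hne : q ≠ p) (t : F) :
    InM K (t • (Pi.single q 1 : τ × κ → F)) (LinearMap.proj p) := by
  refine block_tv hK (l := p.1) ?_ (coB_proj p) ?_
  · rw [← h1]
    exact inB_smul_single q t
  · simp [hne.symm]

/-- Moving the scalar into the centre. -/
theorem inM_smul_center {a : τ × κ → F} {f : Dual F (τ × κ → F)} {c : F} (h : InM K a (c • f)) : InM K (c • a) f :=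
  h.unscale

/-- The block permutation matrices. -/
theorem block_perm_mem (hK : HasBlocks K) (π : Equiv.Perm τ) (f : τ × κ) (c : τ × κ → Fˣ)
    (hdet : ((mono (Equiv.prodCongr π (Equiv.refl κ)) c : GL (τ × κ) F) : Matrix (τ × κ) (τ × κ) F).det = 1) :
    mono (Equiv.prodCongr π (Equiv.refl κ)) c ∈ K := by
  refine hK _ ⟨π, ?_⟩ hdet
  intro l v hv i hi
  rw [mono_apply]
  have : ((Equiv.prodCongr π (Equiv.refl κ))⁻¹ i).1 = π⁻¹ i.1 := rfl
  rw [hv _ ?_, mul_zero]
  rw [this]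
  intro h
  apply hi
  rw [← h]
  simp

/-- From a cross transvection with coordinate centre, everything. -/
theorem final_all (hK : HasBlocks K) (hκ : 2 ≤ Fintype.card κ) (h3 : 3 ≤ Fintype.card (τ × κ)) {q : τ × κ} {t : F}
    {θ : Dual F (τ × κ → F)} {l : τ} (hql : q.1 ≠ l) (ht : t ≠ 0) (hθ : CoB l θ) (hθ0 : θ ≠ 0)
    (h : InM K (t • (Pi.single q 1 : τ × κ → F)) θ) : specialLinear (τ × κ) F ≤ K := by
  classical
  set k := q.1 with hk
  have hθs : ∀ i : τ × κ, i.1 = k → ∀ t' : F, θ (t' • (Pi.single i 1 : τ × κ → F)) = 0 := by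
    intro i hi t'
    rw [map_smul, hθ i (by rw [hi]; exact hql), smul_zero]
  -- the centres
  have hc1 : ∀ i : τ × κ, i.1 = k → i ≠ q → ∀ t' : F, InM K (t' • (Pi.single i 1 : τ × κ → F)) θ := by
    intro i hi hiq t'
    have h1 := block_tv_single hK (t := t' / t) (hi.trans hk) hiq
    have h2 := InM.comm h1 h (hθs i hi _)
    refine InM.iff ?_ rfl h2
    simp only [LinearMap.proj_apply, Pi.smul_apply, Pi.single_eq_same, smul_eq_mul, mul_one, smul_smul]
    congr 1
    field_simp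
  have hc2 : ∀ i : τ × κ, i.1 = k → ∀ t' : F, InM K (t' • (Pi.single i 1 : τ × κ → F)) θ := by
    intro i hi t'
    by_cases hiq : i = q
    · subst hiq
      obtain ⟨i', hi', hne⟩ := exists_other hκ i
      have h1 := block_tv_single hK (t := t') hi'.symm hne.symm
      have h2 := InM.comm h1 (hc1 i' (hi'.trans hi) hne 1) (hθs i hi _)
      refine InM.iff ?_ rfl h2
      simp
    · exact hc1 i hi hiq t'
  -- the covectors
  obtain ⟨r, hr⟩ : ∃ r, θ (Pi.single r 1) ≠ 0 := by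
    by_contra hcon
    push Not at hcon
    exact hθ0 (covector_ext hcon)
  have hrl : r.1 = l := by
    by_contra h5
    exact hr (hθ r h5)
  have hkl : k ≠ l := hql
  have hd1 : ∀ i j : τ × κ, i.1 = k → j.1 = l → j ≠ r → ∀ t' : F, InM K (t' • (Pi.single i 1 : τ × κ → F)) (LinearMap.proj j) := by
    intro i j hi hj hjr t'
    have hij : i ≠ j := fun h5 => hkl (by rw [← hi, ← hj, h5])
    have h1 := hc2 i hi (t' / θ (Pi.single r 1))
    have h2 := block_tv_single hK (t := 1) (q := r) (p := j) (hrl.trans hj.symm) hjr.symm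
    have h4 := InM.comm h1 h2 (by simp [hij])
    refine InM.iff ?_ rfl h4
    rw [map_smul, smul_eq_mul, one_mul, smul_smul]
    congr 1
    field_simp
  have hd2 : ∀ i j : τ × κ, i.1 = k → j.1 = l → ∀ t' : F, InM K (t' • (Pi.single i 1 : τ × κ → F)) (LinearMap.proj j) := by
    intro i j hi hj t'
    by_cases hjr : j = r
    · subst hjr
      obtain ⟨j', hj', hne⟩ := exists_other hκ j
      have hij : i ≠ j := fun h5 => hkl (by rw [← hi, ← hj, h5])
      have h1 := hd1 i j' hi (hj'.trans hj) hne t'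
      have h2 := block_tv_single hK (t := 1) (q := j') (p := j) hj' hne
      have h4 := InM.comm h1 h2 (by simp [hij])
      refine InM.iff ?_ rfl h4
      simp
    · exact hd1 i j hi hj hjr t'
  -- all the pairs of blocks
  refine sl_le_of_all (by omega) ?_
  intro i j hij t'
  by_cases hb : i.1 = j.1
  · exact block_tv_single hK hb hij t'
  obtain ⟨π, h5, h6⟩ := exists_perm_two hkl hb
  let σ : Equiv.Perm (τ × κ) := Equiv.prodCongr π (Equiv.refl κ)
  have hσ : ∀ x : τ × κ, σ x = (π x.1, x.2) := fun x => rfl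
  let i₀ : τ × κ := (k, i.2)
  let j₀ : τ × κ := (l, j.2)
  have hi₀ : σ i₀ = i := by
    rw [hσ]
    exact Prod.ext h5 rfl
  have hj₀ : σ j₀ = j := by
    rw [hσ]
    exact Prod.ext h6 rfl
  have hi₀j₀ : i₀ ≠ j₀ := fun h5 => hkl (congrArg Prod.fst h5)
  obtain ⟨f, hf⟩ := exists_notMem_finset ({i₀, j₀} : Finset (τ × κ)) (by
    have := Finset.card_le_two (a := i₀) (b := j₀)
    omega)
  simp only [Finset.mem_insert, Finset.mem_singleton, not_or] at hf
  let s : Fˣ := Units.mk0 (((Equiv.Perm.sign σ : ℤ) : F)) (by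
    rcases Int.units_eq_one_or (Equiv.Perm.sign σ) with h | h <;> rw [h] <;> simp)
  let d : τ × κ → Fˣ := fun x => if x = f then s else 1
  have hdet : ((mono σ d : GL (τ × κ) F) : Matrix (τ × κ) (τ × κ) F).det = 1 := by
    rw [mono_det]
    have h7 : ∏ x, (d x : F) = (s : F) := by
      rw [Finset.prod_eq_single f]
      · simp [d]
      · intro x _ hx
        simp [d, hx]
      · simp
    rw [h7]
    change (s : F) * (s : F) = 1
    simp only [s, Units.val_mk0]
    rcases Int.units_eq_one_or (Equiv.Perm.sign σ) with h | h <;> rw [h] <;> simp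
  have h8 := (hd2 i₀ j₀ rfl rfl t').conj (block_perm_mem hK π f d hdet)
  refine InM.iff ?_ ?_ h8
  · rw [Matrix.mulVec_smul]
    change t' • (((mono σ d : GL (τ × κ) F) : Matrix (τ × κ) (τ × κ) F) *ᵥ _) = _
    rw [mono_single, hi₀]
    have : (d i₀ : F) = 1 := by
      simp [d, Ne.symm hf.1]
    rw [this, one_mul]
  · apply LinearMap.ext
    intro x
    rw [LinearMap.comp_apply, Matrix.toLin'_apply]
    change ((((mono σ d : GL (τ × κ) F)⁻¹ : GL (τ × κ) F) : Matrix (τ × κ) (τ × κ) F) *ᵥ x) j₀ = x j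
    rw [mono_inv, mono_apply, inv_inv, hj₀]
    have h9 : σ⁻¹ j = j₀ := by
      rw [← hj₀]
      exact σ.symm_apply_apply j₀
    rw [h9]
    have : ((d j₀)⁻¹ : Fˣ) = 1 := by
      simp [d, Ne.symm hf.2]
    rw [this]
    simp

theorem step_l1 (hK : HasBlocks K) (hκ : 2 ≤ Fintype.card κ) (h3 : 3 ≤ Fintype.card (τ × κ)) {a : τ × κ → F}
    {θ : Dual F (τ × κ → F)} {l : τ} (hθ : CoB l θ) (hθ0 : θ ≠ 0) (h : InM K a θ) {p : τ × κ} (hpl : p.1 ≠ l)
    (hap : a p ≠ 0) : specialLinear (τ × κ) F ≤ K := by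
  classical
  obtain ⟨q, hq, hne⟩ := exists_other hκ p
  have h1 := block_tv_single hK (t := 1) hq hne
  have h2 := InM.comm h1 h (by
    rw [map_smul, hθ q (by rw [hq]; exact hpl), smul_zero])
  refine final_all hK hκ h3 (q := q) (t := a p) (by rw [hq]; exact hpl) hap hθ hθ0 ?_
  refine InM.iff ?_ rfl h2
  simp

theorem step_l0 (hK : HasBlocks K) (hκ : 2 ≤ Fintype.card κ) (h3 : 3 ≤ Fintype.card (τ × κ)) {a c : τ × κ → F}
    {ψ θ : Dual F (τ × κ → F)} {l : τ} (h : InM K a ψ) (hc : InB l c) (hθ : CoB l θ) (hθc : θ c = 0) (hθa : θ a = 0)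
    (hψc : ψ c ≠ 0) (hθ0 : θ ≠ 0) {p : τ × κ} (hpl : p.1 ≠ l) (hap : a p ≠ 0) : specialLinear (τ × κ) F ≤ K := by
  have h1 := block_tv hK hc hθ hθc
  have h2 := InM.comm h h1 hθa
  refine step_l1 hK hκ h3 hθ hθ0 h2 hpl ?_
  rw [Pi.smul_apply, smul_eq_mul]
  exact mul_ne_zero hψc hap

theorem step_l2 (hK : HasBlocks K) (hκ : 2 ≤ Fintype.card κ) (h3 : 3 ≤ Fintype.card (τ × κ)) {b : τ × κ → F}
    {ψ : Dual F (τ × κ → F)} (h : InM K b ψ) {r p : τ × κ} (hr : ψ (Pi.single r 1) ≠ 0) (hp : p.1 ≠ r.1) (hbp : b p ≠ 0)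
    (hb : ∀ i : τ × κ, i.1 = r.1 → b i = 0) : specialLinear (τ × κ) F ≤ K := by
  classical
  obtain ⟨s, hs, hne⟩ := exists_other hκ r
  refine step_l0 hK hκ h3 (l := r.1) (c := Pi.single r 1) (θ := LinearMap.proj s) h ?_ ?_ ?_ ?_ hr ?_ hp hbp
  · intro i hi
    have : i ≠ r := fun h => hi (by rw [h])
    simp [this]
  · rw [← hs]
    exact coB_proj s
  · simp [hne]
  · exact hb s hs
  · intro h0
    have h5 := LinearMap.congr_fun h0 (Pi.single s 1)
    simp at h5

/-- The component in a block. -/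
def bp (l : τ) (a : τ × κ → F) : τ × κ → F := fun i => if i.1 = l then a i else 0

theorem bp_inB (l : τ) (a : τ × κ → F) : InB l (bp l a) := by
  intro i hi
  simp [bp, hi]

theorem bp_apply_same {l : τ} (a : τ × κ → F) {i : τ × κ} (hi : i.1 = l) : bp l a i = a i := by
  simp [bp, hi]

theorem bp_apply_ne {l : τ} (a : τ × κ → F) {i : τ × κ} (hi : i.1 ≠ l) : bp l a i = 0 := by
  simp [bp, hi]

theorem sum_bp (a : τ × κ → F) : ∑ l, bp l a = a := by
  ext i
  rw [Finset.sum_apply]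
  simp [bp]

/-- The starting vector. -/
theorem exists_start {x : GL (τ × κ) F} [Nonempty κ]
    (hxs : ¬ ∃ π : Equiv.Perm τ, ∀ l v, InB l v → InB (π l) ((x : Matrix (τ × κ) (τ × κ) F) *ᵥ v)) :
    ∃ (l₀ : τ) (u : τ × κ → F), InB l₀ u ∧ ∃ p p' : τ × κ, p.1 ≠ p'.1 ∧ ((x : Matrix (τ × κ) (τ × κ) F) *ᵥ u) p ≠ 0 ∧
      ((x : Matrix (τ × κ) (τ × κ) F) *ᵥ u) p' ≠ 0 := by
  classical
  by_contra hcon
  push Not at hcon
  apply hxs
  obtain ⟨v₀⟩ := ‹Nonempty κ›
  have hE : ∀ l : τ, (x : Matrix (τ × κ) (τ × κ) F) *ᵥ (Pi.single (l, v₀) 1) ≠ 0 := by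
    intro l h0
    have := mulVec_injective x (h0.trans (Matrix.mulVec_zero _).symm)
    have h3 := congrFun this (l, v₀)
    simp at h3
  have hf : ∀ l : τ, ∃ i, ((x : Matrix (τ × κ) (τ × κ) F) *ᵥ (Pi.single (l, v₀) 1)) i ≠ 0 := by
    intro l
    obtain ⟨i, hi⟩ := Function.ne_iff.1 (hE l)
    exact ⟨i, hi⟩
  choose f hf using hf
  let π₀ : τ → τ := fun l => (f l).1
  have hinB : ∀ l v, InB l v → InB (π₀ l) ((x : Matrix (τ × κ) (τ × κ) F) *ᵥ v) := by
    intro l v hv i hi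
    by_contra h0
    have hEl : InB l (Pi.single (l, v₀) 1 : τ × κ → F) := by
      intro j hj
      have : j ≠ (l, v₀) := fun h => hj (by rw [h])
      simp [this]
    have hfi : (f l).1 ≠ i.1 := fun h => hi (by rw [← h])
    have h1 := hcon l (Pi.single (l, v₀) 1) hEl (f l) i hfi (hf l)
    have h2 := hcon l v hv i (f l) hfi.symm h0
    have hw : InB l (v + Pi.single (l, v₀) 1) := by
      intro j hj
      rw [Pi.add_apply, hv j hj, hEl j hj, add_zero]
    have h3 := hcon l _ hw i (f l) hfi.symm (by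
      rw [Matrix.mulVec_add, Pi.add_apply, h1, add_zero]
      exact h0)
    rw [Matrix.mulVec_add, Pi.add_apply, h2, zero_add] at h3
    exact hf l h3
  have hsurj : Function.Surjective π₀ := by
    intro k
    by_contra hk
    push Not at hk
    set w := ((x⁻¹ : GL (τ × κ) F) : Matrix (τ × κ) (τ × κ) F) *ᵥ (Pi.single (k, v₀) 1) with hw
    have h1 : (x : Matrix (τ × κ) (τ × κ) F) *ᵥ w = Pi.single (k, v₀) 1 := by
      rw [hw, mulVec_inv_mulVec]
    rw [← sum_bp w, Matrix.mulVec_sum] at h1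
    have h2 := congrFun h1 (k, v₀)
    rw [Finset.sum_apply, Pi.single_eq_same, Finset.sum_eq_zero] at h2
    · exact zero_ne_one h2
    · intro l _
      exact hinB l _ (bp_inB l w) (k, v₀) (fun h => hk l h.symm)
  exact ⟨Equiv.ofBijective π₀ (Finite.surjective_iff_bijective.1 hsurj) , hinB⟩

/-! ### Pseudo-reflections. -/

/-- The pseudo-reflection as a linear equivalence. -/
noncomputable def prE {ι : Type} [Fintype ι] [DecidableEq ι] (θ : Dual F (ι → F)) (w : ι → F) (hw : θ w = 1) (ν : Fˣ) :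
    (ι → F) ≃ₗ[F] (ι → F) where
  toFun x := x + (((ν : F) - 1) * θ x) • w
  invFun x := x + ((((ν⁻¹ : Fˣ) : F) - 1) * θ x) • w
  map_add' x y := by
    simp only [map_add, mul_add, add_smul]
    abel
  map_smul' a x := by
    simp only [map_smul, smul_eq_mul, RingHom.id_apply, smul_add, smul_smul]
    congr 2
    ring
  left_inv x := by
    simp only [map_add, map_smul, hw, smul_eq_mul, mul_one]
    have h0 := ν.ne_zero
    rw [Units.val_inv_eq_inv_val]
    ext i
    simp only [Pi.add_apply, Pi.smul_apply, smul_eq_mul]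
    field_simp
    ring
  right_inv x := by
    simp only [map_add, map_smul, hw, smul_eq_mul, mul_one]
    have h0 := ν.ne_zero
    rw [Units.val_inv_eq_inv_val]
    ext i
    simp only [Pi.add_apply, Pi.smul_apply, smul_eq_mul]
    field_simp
    ring

/-- The pseudo-reflection. -/
noncomputable def pr {ι : Type} [Fintype ι] [DecidableEq ι] (θ : Dual F (ι → F)) (w : ι → F) (hw : θ w = 1) (ν : Fˣ) : GL ι F :=
  glOfEquiv (prE θ w hw ν)

theorem pr_mulVec {ι : Type} [Fintype ι] [DecidableEq ι] (θ : Dual F (ι → F)) (w : ι → F) (hw : θ w = 1) (ν : Fˣ) (x : ι → F) :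
    ((pr θ w hw ν : GL ι F) : Matrix ι ι F) *ᵥ x = x + (((ν : F) - 1) * θ x) • w := by
  rw [pr, glOfEquiv_mulVec]
  rfl

theorem pr_inv_mulVec {ι : Type} [Fintype ι] [DecidableEq ι] (θ : Dual F (ι → F)) (w : ι → F) (hw : θ w = 1) (ν : Fˣ) (x : ι → F) :
    (((pr θ w hw ν : GL ι F)⁻¹ : GL ι F) : Matrix ι ι F) *ᵥ x = x + ((((ν⁻¹ : Fˣ) : F) - 1) * θ x) • w :=
  GLMode.inv_formula hw (pr_mulVec θ w hw ν) x

theorem pr_det {ι : Type} [Fintype ι] [DecidableEq ι] (θ : Dual F (ι → F)) (w : ι → F) (hw : θ w = 1) (ν : Fˣ) :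
    ((pr θ w hw ν : GL ι F) : Matrix ι ι F).det = ν := by
  have h1 : Matrix.toLin' ((pr θ w hw ν : GL ι F) : Matrix ι ι F) = LinearMap.transvection θ (((ν : F) - 1) • w) := by
    apply LinearMap.ext
    intro x
    rw [Matrix.toLin'_apply, pr_mulVec, LinearMap.transvection.apply, smul_smul, mul_comm]
  rw [← LinearMap.det_toLin', h1, LinearMap.transvection.det, map_smul, hw]
  simp

/-- The block-diagonal product of two pseudo-reflections. -/
theorem step_pr (hK : HasBlocks K) {a w₁ w₂ : τ × κ → F} {ψ θ₁ θ₂ : Dual F (τ × κ → F)} {l₁ l₂ : τ} (hl : l₁ ≠ l₂)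
    (h : InM K a ψ) (hw₁ : InB l₁ w₁) (hw₂ : InB l₂ w₂) (hθ₁ : CoB l₁ θ₁) (hθ₂ : CoB l₂ θ₂) (h₁ : θ₁ w₁ = 1)
    (h₂ : θ₂ w₂ = 1) (hψ₁ : ψ w₁ = 0) (hψ₂ : ψ w₂ = 0) (ν : Fˣ) :
    InM K ((((ν : F) - 1) * θ₁ a) • w₁ + ((((ν⁻¹ : Fˣ) : F) - 1) * θ₂ a) • w₂) ψ := by
  have hpre : ∀ {l : τ} {w : τ × κ → F} {θ : Dual F (τ × κ → F)} (hw : InB l w) (hθ : CoB l θ) (h₀ : θ w = 1) (n : Fˣ) (k : τ)
      (v : τ × κ → F), InB k v → InB k (((pr θ w h₀ n : GL (τ × κ) F) : Matrix (τ × κ) (τ × κ) F) *ᵥ v) := by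
    intro l w θ hw hθ h₀ n k v hv i hi
    rw [pr_mulVec, Pi.add_apply, hv i hi, zero_add, Pi.smul_apply, smul_eq_mul]
    by_cases hkl : k = l
    · subst hkl
      rw [hw i hi, mul_zero]
    · rw [hθ.apply_eq_zero hv hkl, mul_zero, zero_mul]
  have hs : pr θ₁ w₁ h₁ ν * pr θ₂ w₂ h₂ ν⁻¹ ∈ K := by
    refine hK _ ⟨1, ?_⟩ ?_
    · intro l v hv
      rw [gl_mulVec_mul]
      exact hpre hw₁ hθ₁ h₁ ν _ _ (hpre hw₂ hθ₂ h₂ _ _ _ hv)
    · rw [Units.val_mul, Matrix.det_mul, pr_det, pr_det]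
      simp
  have h1 := sub_center h hs (by
    intro x
    rw [mul_inv_rev, gl_mulVec_mul, pr_inv_mulVec, pr_inv_mulVec]
    simp only [map_add, map_smul, hψ₁, hψ₂, smul_eq_mul, mul_zero, add_zero])
  refine InM.iff ?_ rfl h1
  rw [gl_mulVec_mul, pr_mulVec, pr_mulVec, map_add, map_smul, hθ₁.apply_eq_zero hw₂ hl.symm]
  ext i
  simp only [Pi.add_apply, Pi.sub_apply, Pi.smul_apply, smul_eq_mul, mul_zero, add_zero]
  ring

/-- The analysis of a transvection whose centre meets two blocks. -/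
theorem analysis [Fintype F] (hK : HasBlocks K) (hκ : 2 ≤ Fintype.card κ) (hq2 : Fintype.card κ = 2 → 3 ≤ Fintype.card F)
    (ht3 : Fintype.card κ = 2 → 3 ≤ Fintype.card τ) (h3 : 3 ≤ Fintype.card (τ × κ)) {a : τ × κ → F}
    {ψ : Dual F (τ × κ → F)} (h : InM K a ψ) (hψ0 : ψ ≠ 0) {p p' : τ × κ} (hpp' : p.1 ≠ p'.1) (hap : a p ≠ 0)
    (hap' : a p' ≠ 0) : specialLinear (τ × κ) F ≤ K := by
  classical
  obtain ⟨r₀, hr₀⟩ : ∃ r, ψ (Pi.single r 1) ≠ 0 := by
    by_contra hcon
    push Not at hcon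
    exact hψ0 (covector_ext hcon)
  have hother : ∀ l : τ, ∃ p'' : τ × κ, p''.1 ≠ l ∧ a p'' ≠ 0 := by
    intro l
    by_cases h5 : p.1 = l
    · exact ⟨p', fun h6 => hpp' (h5.trans h6.symm), hap'⟩
    · exact ⟨p, h5, hap⟩
  by_cases hP1 : ∃ r : τ × κ, ψ (Pi.single r 1) ≠ 0 ∧ (ψ (bp r.1 a) ≠ 0 ∨ (∀ i : τ × κ, i.1 = r.1 → a i = 0) ∨ 3 ≤ Fintype.card κ)
  · obtain ⟨r, hr, hcase⟩ := hP1
    obtain ⟨p'', hp'', hap''⟩ := hother r.1
    rcases hcase with h1 | h1 | h1
    · -- the component of the centre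
      obtain ⟨w, hw, haw⟩ : ∃ w : τ × κ, w.1 = r.1 ∧ a w ≠ 0 := by
        by_contra hcon
        push Not at hcon
        apply h1
        have : bp r.1 a = 0 := by
          ext i
          by_cases hi : i.1 = r.1
          · rw [bp_apply_same a hi, hcon i hi]
            rfl
          · rw [bp_apply_ne a hi]
            rfl
        rw [this, map_zero]
      obtain ⟨q, hq, hne⟩ := exists_other hκ w
      refine step_l0 hK hκ h3 (l := r.1) (c := bp r.1 a) (θ := a q • LinearMap.proj w - a w • LinearMap.proj q) h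
        (bp_inB _ _) ?_ ?_ ?_ h1 ?_ hp'' hap''
      · intro i hi
        have h5 : w ≠ i := fun h6 => hi (by rw [← h6, hw])
        have h6 : q ≠ i := fun h6 => hi (by rw [← h6, hq, hw])
        simp [h5, h6]
      · simp only [LinearMap.sub_apply, LinearMap.smul_apply, LinearMap.proj_apply, smul_eq_mul]
        rw [bp_apply_same a hw, bp_apply_same a (hq.trans hw)]
        ring
      · simp only [LinearMap.sub_apply, LinearMap.smul_apply, LinearMap.proj_apply, smul_eq_mul]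
        ring
      · intro h0
        have h5 := LinearMap.congr_fun h0 (Pi.single q 1)
        simp [hne, hne.symm] at h5
        exact haw h5
    · exact step_l2 hK hκ h3 h hr hp'' hap'' h1
    · -- three coordinates in the block
      obtain ⟨v₁, hv₁⟩ := exists_notMem_finset ({r.2} : Finset κ) (by simp; omega)
      obtain ⟨v₂, hv₂⟩ := exists_notMem_finset ({r.2, v₁} : Finset κ) (by
        have := Finset.card_le_two (a := r.2) (b := v₁)
        omega)
      simp only [Finset.mem_insert, Finset.mem_singleton, not_or] at hv₁ hv₂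
      let s : τ × κ := (r.1, v₁)
      let s' : τ × κ := (r.1, v₂)
      have hsr : s ≠ r := fun h5 => hv₁ (congrArg Prod.snd h5)
      have hs'r : s' ≠ r := fun h5 => hv₂.1 (congrArg Prod.snd h5)
      have hss' : s ≠ s' := fun h5 => hv₂.2 (congrArg Prod.snd h5).symm
      have hcr : InB r.1 (Pi.single r 1 : τ × κ → F) := by
        intro i hi
        have : i ≠ r := fun h => hi (by rw [h])
        simp [this]
      by_cases has : a s = 0
      · refine step_l0 hK hκ h3 (l := r.1) (c := Pi.single r 1) (θ := LinearMap.proj s) h hcr (coB_proj s) ?_ has hr ?_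
          hp'' hap''
        · simp [hsr]
        · intro h0
          have h5 := LinearMap.congr_fun h0 (Pi.single s 1)
          simp at h5
      · refine step_l0 hK hκ h3 (l := r.1) (c := Pi.single r 1) (θ := a s' • LinearMap.proj s - a s • LinearMap.proj s') h hcr
          ?_ ?_ ?_ hr ?_ hp'' hap''
        · intro i hi
          have h5 : s ≠ i := fun h6 => hi (by rw [← h6])
          have h6 : s' ≠ i := fun h6 => hi (by rw [← h6])
          simp [h5, h6]
        · simp [hsr, hs'r]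
        · simp only [LinearMap.sub_apply, LinearMap.smul_apply, LinearMap.proj_apply, smul_eq_mul]
          ring
        · intro h0
          have h5 := LinearMap.congr_fun h0 (Pi.single s' 1)
          simp [hss'.symm] at h5
          exact has h5
  push Not at hP1
  have hm2 : Fintype.card κ = 2 := by
    have := (hP1 r₀ hr₀).2.2
    omega
  by_cases hP2 : ∃ w : τ × κ, a w ≠ 0 ∧ ∀ i : τ × κ, i.1 = w.1 → ψ (Pi.single i 1) = 0
  · obtain ⟨w, haw, hψw⟩ := hP2
    obtain ⟨q, hq, hne⟩ := exists_other hκ w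
    have h1 := block_tv_single hK (t := 1) hq hne
    have h2 := InM.comm h1 h (by
      rw [map_smul, hψw q hq, smul_zero])
    have hr₀w : r₀.1 ≠ w.1 := fun h5 => hr₀ (hψw _ h5)
    refine step_l2 hK hκ h3 h2 (r := r₀) (p := q) hr₀ (by rw [hq]; exact hr₀w.symm) ?_ ?_
    · simp [haw]
    · intro i hi
      have : i ≠ q := fun h5 => hr₀w (by rw [← hi, h5, hq])
      simp [this]
  push Not at hP2
  -- the bad case
  have hq3 := hq2 hm2
  obtain ⟨ν, hν⟩ := exists_ne_one (F := F) hq3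
  have hν1 := sub_one_ne (F := F) hν
  have hbad : ∀ w : τ × κ, a w ≠ 0 → ψ (bp w.1 a) = 0 := by
    intro w hw
    obtain ⟨i, hi, hψi⟩ := hP2 w hw
    have := (hP1 i hψi).1
    rwa [hi] at this
  have hθ : ∀ w : τ × κ, a w ≠ 0 → CoB w.1 ((a w)⁻¹ • (LinearMap.proj w : Dual F (τ × κ → F))) ∧
      ((a w)⁻¹ • (LinearMap.proj w : Dual F (τ × κ → F))) (bp w.1 a) = 1 ∧ ((a w)⁻¹ • (LinearMap.proj w : Dual F (τ × κ → F))) a = 1 := by
    intro w hw
    refine ⟨?_, ?_, ?_⟩
    · intro i hi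
      have : w ≠ i := fun h5 => hi (by rw [h5])
      simp [this]
    · simp only [LinearMap.smul_apply, LinearMap.proj_apply, smul_eq_mul]
      rw [bp_apply_same a rfl]
      exact inv_mul_cancel₀ hw
    · simp only [LinearMap.smul_apply, LinearMap.proj_apply, smul_eq_mul]
      exact inv_mul_cancel₀ hw
  obtain ⟨h1p, h2p, h3p⟩ := hθ p hap
  by_cases hl'' : ∃ p'' : τ × κ, a p'' ≠ 0 ∧ p''.1 ≠ p.1 ∧ p''.1 ≠ p'.1
  · obtain ⟨p'', hap'', h5, h6⟩ := hl''
    obtain ⟨r'', hr''1, hr''⟩ := hP2 p'' hap''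
    obtain ⟨h1p', h2p', h3p'⟩ := hθ p' hap'
    have h7 := step_pr hK hpp' h (bp_inB _ _) (bp_inB _ _) h1p h1p' h2p h2p' (hbad p hap) (hbad p' hap') ν
    rw [h3p, h3p', mul_one, mul_one] at h7
    refine step_l2 hK hκ h3 h7 (r := r'') (p := p) hr'' ?_ ?_ ?_
    · rw [hr''1]
      exact h5.symm
    · rw [Pi.add_apply, Pi.smul_apply, Pi.smul_apply, bp_apply_same a rfl, bp_apply_ne a hpp', smul_zero, add_zero,
        smul_eq_mul]
      exact mul_ne_zero hν1 hap
    · intro i hi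
      rw [Pi.add_apply, Pi.smul_apply, Pi.smul_apply, bp_apply_ne a (by rw [hi, hr''1]; exact h5),
        bp_apply_ne a (by rw [hi, hr''1]; exact h6), smul_zero, smul_zero, add_zero]
  · push Not at hl''
    rename' hl'' => hsupp
    -- a block outside
    obtain ⟨l'', hl''⟩ := exists_notMem_finset ({p.1, p'.1} : Finset τ) (by
      have := Finset.card_le_two (a := p.1) (b := p'.1)
      have := ht3 hm2
      omega)
    simp only [Finset.mem_insert, Finset.mem_singleton, not_or] at hl''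
    haveI : Nonempty κ := Fintype.card_pos_iff.1 (by omega)
    obtain ⟨v₀⟩ := ‹Nonempty κ›
    let w' : τ × κ := (l'', v₀)
    have haz : ∀ i : τ × κ, i.1 = l'' → a i = 0 := by
      intro i hi
      by_contra h5
      exact hl''.2 (by rw [← hi]; exact hsupp i h5 (by rw [hi]; exact hl''.1))
    have hψz : ∀ i : τ × κ, i.1 = l'' → ψ (Pi.single i 1) = 0 := by
      intro i hi
      by_contra h5
      obtain ⟨-, ⟨j, hj, haj⟩, -⟩ := hP1 i h5
      exact haj (haz j (hj.trans hi))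
    obtain ⟨r', hr'1, hr'⟩ := hP2 p' hap'
    have h7 := step_pr hK (l₁ := p.1) (l₂ := l'') (w₂ := Pi.single w' 1) (θ₂ := LinearMap.proj w') (Ne.symm hl''.1) h (bp_inB _ _)
      (inB_one w') h1p (coB_proj w') h2p (by simp) (hbad p hap) (hψz w' rfl) ν
    rw [h3p, mul_one] at h7
    simp only [LinearMap.proj_apply, haz w' rfl, mul_zero, zero_smul, add_zero] at h7
    refine step_l2 hK hκ h3 h7 (r := r') (p := p) hr' ?_ ?_ ?_
    · rw [hr'1]
      exact hpp'
    · rw [Pi.smul_apply, bp_apply_same a rfl, smul_eq_mul]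
      exact mul_ne_zero hν1 hap
    · intro i hi
      rw [Pi.smul_apply, bp_apply_ne a (by rw [hi, hr'1]; exact hpp'.symm), smul_zero]

/-- **The case of blocks of dimension at least two.** -/
theorem block_main [Fintype F] (hK : HasBlocks K) (hκ : 2 ≤ Fintype.card κ) (hq2 : Fintype.card κ = 2 → 3 ≤ Fintype.card F)
    (ht3 : Fintype.card κ = 2 → 3 ≤ Fintype.card τ) (h3 : 3 ≤ Fintype.card (τ × κ)) {x : GL (τ × κ) F} (hx : x ∈ K)
    (hxs : ¬ ∃ π : Equiv.Perm τ, ∀ l v, InB l v → InB (π l) ((x : Matrix (τ × κ) (τ × κ) F) *ᵥ v)) :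
    specialLinear (τ × κ) F ≤ K := by
  classical
  haveI : Nonempty κ := Fintype.card_pos_iff.1 (by omega)
  obtain ⟨l₀, u, hu, p, p', hpp', hap, hap'⟩ := exists_start hxs
  have hu0 : u ≠ 0 := by
    rintro rfl
    rw [Matrix.mulVec_zero] at hap
    exact hap rfl
  obtain ⟨w, hw⟩ := Function.ne_iff.1 hu0
  simp only [Pi.zero_apply] at hw
  have hwl : w.1 = l₀ := by
    by_contra h5
    exact hw (hu w h5)
  obtain ⟨q, hq, hne⟩ := exists_other hκ w
  let φ : Dual F (τ × κ → F) := u q • LinearMap.proj w - u w • LinearMap.proj q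
  have hφ : CoB l₀ φ := by
    intro i hi
    have h5 : w ≠ i := fun h6 => hi (by rw [← h6, hwl])
    have h6 : q ≠ i := fun h6 => hi (by rw [← h6, hq, hwl])
    simp [φ, h5, h6]
  have hφu : φ u = 0 := by
    simp only [φ, LinearMap.sub_apply, LinearMap.smul_apply, LinearMap.proj_apply, smul_eq_mul]
    ring
  have hφ0 : φ ≠ 0 := by
    intro h0
    have h5 := LinearMap.congr_fun h0 (Pi.single q 1)
    simp [φ, hne, hne.symm] at h5
    exact hw h5
  have h1 := (block_tv hK hu hφ hφu).conj hx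
  refine analysis hK hκ hq2 ht3 h3 h1 ?_ hpp' hap hap'
  intro h0
  apply hφ0
  apply LinearMap.ext
  intro y
  have h5 := LinearMap.congr_fun h0 ((x : Matrix (τ × κ) (τ × κ) F) *ᵥ y)
  rw [LinearMap.comp_apply, Matrix.toLin'_apply, inv_mulVec_mulVec] at h5
  simpa using h5

end Cfsg.Agent.Lib.Classical.C2.Blocks
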