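/-
The maximality of the stabilisers of decompositions in `SL`.
-/
import Mathlib
import Cfsg.Agent.Lib.Classical.C2.Blocks
import Cfsg.Agent.Lib.Classical.Asch.Block

set_option autoImplicit false
set_option linter.unusedSectionVars false

namespace Cfsg.Agent.Lib.Classical.C2.Main

open scoped Matrix MatrixGroups
open Module Cfsg.Geo
open Cfsg.Agent.Lib.Classical.Geo.Basic Cfsg.Agent.Lib.Classical.Sub.Rat
open Cfsg.Agent.Lib.Classical.C2.Base Cfsg.Agent.Lib.Classical.C2.Finish Cfsg.Agent.Lib.Classical.C2.Blocks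

variable {ι ι' : Type} [Fintype ι] [DecidableEq ι] [Fintype ι'] [DecidableEq ι'] {F : Type*} [Field F]

/-- An element of `GL` as a linear equivalence. -/
noncomputable def glEquiv (g : GL ι F) : (ι → F) ≃ₗ[F] (ι → F) where
  toFun x := (g : Matrix ι ι F) *ᵥ x
  invFun x := ((g⁻¹ : GL ι F) : Matrix ι ι F) *ᵥ x
  map_add' x y := Matrix.mulVec_add _ _ _
  map_smul' a x := Matrix.mulVec_smul _ _ _
  left_inv x := inv_mulVec_mulVec g x
  right_inv x := mulVec_inv_mulVec g x

/-- Change of coordinates. -/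
noncomputable def conjE (e : (ι → F) ≃ₗ[F] (ι' → F)) (g : GL ι F) : GL ι' F :=
  glOfEquiv ((e.symm.trans (glEquiv g)).trans e)

theorem conjE_mulVec (e : (ι → F) ≃ₗ[F] (ι' → F)) (g : GL ι F) (y : ι' → F) :
    ((conjE e g : GL ι' F) : Matrix ι' ι' F) *ᵥ y = e ((g : Matrix ι ι F) *ᵥ (e.symm y)) := by
  rw [conjE, glOfEquiv_mulVec]
  rfl

theorem conjE_mul (e : (ι → F) ≃ₗ[F] (ι' → F)) (g h : GL ι F) : conjE e (g * h) = conjE e g * conjE e h := by
  apply gl_ext
  intro y
  rw [gl_mulVec_mul, conjE_mulVec, conjE_mulVec, conjE_mulVec, gl_mulVec_mul, e.symm_apply_apply]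

theorem conjE_symm (e : (ι → F) ≃ₗ[F] (ι' → F)) (g : GL ι F) : conjE e.symm (conjE e g) = g := by
  apply gl_ext
  intro y
  rw [conjE_mulVec, conjE_mulVec]
  simp

theorem conjE_symm' (e : (ι → F) ≃ₗ[F] (ι' → F)) (g : GL ι' F) : conjE e (conjE e.symm g) = g := by
  apply gl_ext
  intro y
  rw [conjE_mulVec, conjE_mulVec]
  simp

/-- The change of coordinates as a group isomorphism. -/
noncomputable def conjMul (e : (ι → F) ≃ₗ[F] (ι' → F)) : GL ι F ≃* GL ι' F where
  toFun := conjE e
  invFun := conjE e.symm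
  left_inv := conjE_symm e
  right_inv := conjE_symm' e
  map_mul' := conjE_mul e

theorem conjE_det (e : (ι → F) ≃ₗ[F] (ι' → F)) (g : GL ι F) :
    ((conjE e g : GL ι' F) : Matrix ι' ι' F).det = (g : Matrix ι ι F).det := by
  rw [← LinearMap.det_toLin', ← LinearMap.det_toLin' (g : Matrix ι ι F), ← LinearMap.det_conj _ e]
  congr 1
  apply LinearMap.ext
  intro y
  rw [Matrix.toLin'_apply, conjE_mulVec]
  rfl

theorem conjE_mem_sl (e : (ι → F) ≃ₗ[F] (ι' → F)) {g : GL ι F} : conjE e g ∈ specialLinear ι' F ↔ g ∈ specialLinear ι F := by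
  rw [mem_specialLinear_iff, mem_specialLinear_iff, conjE_det]

end Cfsg.Agent.Lib.Classical.C2.Main

namespace Cfsg.Agent.Lib.Classical.C2.Main

open scoped Matrix MatrixGroups
open Module Cfsg.Geo
open Cfsg.Agent.Lib.Classical.Geo.Basic Cfsg.Agent.Lib.Classical.Sub.Rat
open Cfsg.Agent.Lib.Classical.C2.Base Cfsg.Agent.Lib.Classical.C2.Finish Cfsg.Agent.Lib.Classical.C2.Blocks

variable {ι : Type} [Fintype ι] [DecidableEq ι] {F : Type*} [Field F] {t m : ℕ}

/-- Monomial matrices preserve the blocks when the blocks are lines. -/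
theorem mono_blocks {τ κ : Type} [Fintype τ] [DecidableEq τ] [Fintype κ] [DecidableEq κ] (hκ : Fintype.card κ = 1)
    (σ : Equiv.Perm (τ × κ)) (c : τ × κ → Fˣ) :
    ∃ π : Equiv.Perm τ, ∀ l v, InB l v → InB (π l) (((mono σ c : GL (τ × κ) F) : Matrix (τ × κ) (τ × κ) F) *ᵥ v) := by
  classical
  obtain ⟨huq⟩ := Fintype.card_eq_one_iff_nonempty_unique.1 hκ
  letI := huq
  let π : Equiv.Perm τ := ((Equiv.prodUnique τ κ).symm.trans σ).trans (Equiv.prodUnique τ κ)
  refine ⟨π, fun l v hv i hi => ?_⟩
  rw [mono_apply, hv _ ?_, mul_zero]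
  intro h
  apply hi
  have h1 : σ⁻¹ i = (l, default) := by
    ext
    · exact h
    · exact Subsingleton.elim _ _
  have h2 : i = σ (l, default) := by
    rw [← h1]
    exact (σ.apply_symm_apply i).symm
  rw [h2]
  simp [π, Equiv.prodUnique]

/-- The transport between a decomposition and the standard blocks. -/
theorem inB_iff {D : Fin t → Submodule F (ι → F)} (B : Module.Basis (Fin t × Fin m) F (ι → F))
    (hB : ∀ i j, B (i, j) ∈ D i) (hB' : ∀ i, ∀ w ∈ D i, ∀ k, k ≠ i → ∀ j, B.repr w (k, j) = 0) (l : Fin t)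
    (v : Fin t × Fin m → F) : InB l v ↔ B.equivFun.symm v ∈ D l := by
  constructor
  · intro hv
    rw [Module.Basis.equivFun_symm_apply]
    refine Submodule.sum_mem _ fun i _ => ?_
    by_cases hi : i.1 = l
    · refine Submodule.smul_mem _ _ ?_
      rw [← hi]
      exact hB _ _
    · rw [hv i hi, zero_smul]
      exact Submodule.zero_mem _
  · intro hv i hi
    have h1 := hB' l _ hv i.1 hi i.2
    have h2 := congrFun (B.equivFun.apply_symm_apply v) i
    rw [Module.Basis.equivFun_apply] at h2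
    rw [← h2]
    exact h1

theorem mem_stab_iff {D : Fin t → Submodule F (ι → F)} (hD : IsMDecomposition m D) (B : Module.Basis (Fin t × Fin m) F (ι → F))
    (hB : ∀ i j, B (i, j) ∈ D i) (hB' : ∀ i, ∀ w ∈ D i, ∀ k, k ≠ i → ∀ j, B.repr w (k, j) = 0) (g : GL ι F) :
    g ∈ decompositionStabilizer D ↔ ∃ π : Equiv.Perm (Fin t), ∀ l v, InB l v →
      InB (π l) (((conjE B.equivFun g : GL (Fin t × Fin m) F) : Matrix (Fin t × Fin m) (Fin t × Fin m) F) *ᵥ v) := by
  constructor
  · rintro ⟨σ, hσ⟩
    refine ⟨σ, fun l v hv => ?_⟩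
    rw [inB_iff B hB hB', conjE_mulVec, LinearEquiv.symm_apply_apply, ← hσ]
    exact ⟨_, (inB_iff B hB hB' l v).1 hv, Matrix.toLin'_apply _ _⟩
  · rintro ⟨π, hπ⟩
    refine ⟨π, fun l => ?_⟩
    have hle : (D l).map (Matrix.toLin' (g : Matrix ι ι F)) ≤ D (π l) := by
      rintro _ ⟨w, hw, rfl⟩
      have h1 : InB l (B.equivFun w) := by
        rw [inB_iff B hB hB', LinearEquiv.symm_apply_apply]
        exact hw
      have h2 := (inB_iff B hB hB' _ _).1 (hπ l _ h1)
      rw [conjE_mulVec, LinearEquiv.symm_apply_apply, LinearEquiv.symm_apply_apply] at h2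
      exact h2
    refine Submodule.eq_of_le_of_finrank_eq hle ?_
    rw [hD.finrank_eq (π l), ← hD.finrank_eq l]
    exact (glEquiv g).finrank_map_eq (D l)

/-- **The maximality.** -/
theorem isMaximal_decomposition [Fintype F] (h13 : 13 ≤ Fintype.card ι) {D : Fin t → Submodule F (ι → F)} (hD : IsMDecomposition m D)
    (h1 : ¬ (m = 1 ∧ Fintype.card F ≤ 4)) (h2 : ¬ (m = 2 ∧ Fintype.card F = 2)) :
    IsMaximalIn (specialLinear ι F) (decompositionStabilizer D ⊓ specialLinear ι F) := by
  classical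
  obtain ⟨B, hB, hB'⟩ := Cfsg.Agent.Lib.Classical.Asch.Block.exists_blockBasis hD
  have hcard := Cfsg.Agent.Lib.Classical.Asch.Block.card_eq_mul hD
  have hcard2 : Fintype.card (Fin t × Fin m) = Fintype.card ι := by
    rw [hcard]
    simp
  set e := B.equivFun with he
  have hstab := mem_stab_iff hD B hB hB'
  have hm0 : 1 ≤ m := hD.pos
  have ht2 : 2 ≤ t := hD.two_le
  refine ⟨?_, ?_⟩
  · -- the proper containment
    refine lt_of_le_of_ne inf_le_right ?_
    intro heq
    -- a transvection moving the blocks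
    let k : Fin t := ⟨0, by omega⟩
    let l : Fin t := ⟨1, by omega⟩
    let j : Fin m := ⟨0, by omega⟩
    have hkl : k ≠ l := by
      intro h
      have := congrArg Fin.val h
      simp [k, l] at this
    have hne : ((k, j) : Fin t × Fin m) ≠ (l, j) := fun h => hkl (congrArg Prod.fst h)
    have h0 : (LinearMap.proj ((l, j) : Fin t × Fin m) : Dual F (Fin t × Fin m → F)) (Pi.single (k, j) 1) = 0 := by
      simp [hne]
    let y : GL (Fin t × Fin m) F := tv _ _ h0
    have hy : conjE e.symm y ∈ specialLinear ι F := by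
      rw [conjE_mem_sl]
      exact tv_mem_specialLinear _ _ h0
    rw [← heq] at hy
    obtain ⟨π, hπ⟩ := (hstab _).1 hy.1
    rw [he, conjE_symm'] at hπ
    have h5 := hπ l (Pi.single (l, j) 1) (inB_one (l, j))
    have h6 : ((y : GL (Fin t × Fin m) F) : Matrix (Fin t × Fin m) (Fin t × Fin m) F) *ᵥ (Pi.single (l, j) 1) =
        Pi.single (l, j) 1 + Pi.single (k, j) 1 := by
      simp only [y, tv_mulVec]
      simp
    rw [h6] at h5
    have h7 := h5 (l, j)
    have h8 := h5 (k, j)
    simp [hne, hne.symm] at h7 h8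
    exact hkl (h8.trans h7.symm)
  · intro M hle hM
    by_cases hMH : M ≤ decompositionStabilizer D ⊓ specialLinear ι F
    · exact Or.inl (le_antisymm hMH hle)
    right
    refine le_antisymm hM ?_
    obtain ⟨x, hxM, hx⟩ := SetLike.not_le_iff_exists.1 hMH
    have hxs : x ∉ decompositionStabilizer D := fun h => hx ⟨h, hM hxM⟩
    -- the group in coordinates
    let Φ : GL ι F ≃* GL (Fin t × Fin m) F := conjMul e
    have hΦ : ∀ g, Φ g = conjE e g := fun g => rfl
    let K : Subgroup (GL (Fin t × Fin m) F) := M.map Φ.toMonoidHom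
    have hmemK : ∀ g, g ∈ M → conjE e g ∈ K := fun g hg => ⟨g, hg, rfl⟩
    have hHas : HasBlocks K := by
      intro h hπ hdet
      have h5 : conjE e (conjE e.symm h) = h := conjE_symm' e h
      rw [← h5]
      refine hmemK _ (hle (Subgroup.mem_inf.2 ⟨?_, ?_⟩))
      · rw [hstab, ← he, h5]
        exact hπ
      · rw [← conjE_mem_sl e, h5, mem_specialLinear_iff]
        exact hdet
    have hxK : conjE e x ∈ K := hmemK x hxM
    have hxs' : ¬ ∃ π : Equiv.Perm (Fin t), ∀ l v, InB l v →
        InB (π l) (((conjE e x : GL (Fin t × Fin m) F) : Matrix (Fin t × Fin m) (Fin t × Fin m) F) *ᵥ v) := by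
      rw [← hstab]
      exact hxs
    have hSL : specialLinear (Fin t × Fin m) F ≤ K := by
      by_cases hm1 : m = 1
      · -- blocks of dimension one
        have hq : 5 ≤ Fintype.card F := by
          by_contra h5
          exact h1 ⟨hm1, by omega⟩
        have hκ : Fintype.card (Fin m) = 1 := by simpa using hm1
        have hMono : HasMono K := by
          intro σ c hdet
          exact hHas _ (mono_blocks hκ σ c) hdet
        refine Good.mono_main hq hMono (by omega) ?_ hxK ?_
        · rintro _ ⟨g, hg, rfl⟩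
          exact (conjE_mem_sl e).2 (hM hg)
        · rintro ⟨σ, c, h5⟩
          apply hxs'
          rw [h5]
          exact mono_blocks hκ σ c
      · have hm2 : 2 ≤ m := by omega
        refine block_main hHas (by simpa using hm2) ?_ ?_ (by omega) hxK hxs'
        · intro h5
          have h6 : m = 2 := by simpa using h5
          have h7 : Fintype.card F ≠ 2 := fun h8 => h2 ⟨h6, h8⟩
          have h8 : 1 < Fintype.card F := Fintype.one_lt_card
          omega
        · intro h5
          have h6 : m = 2 := by simpa using h5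
          rw [h6] at hcard
          simp only [Fintype.card_fin]
          omega
    intro g hg
    have h5 : conjE e g ∈ K := hSL ((conjE_mem_sl e).2 hg)
    obtain ⟨g', hg', h6⟩ := h5
    have h7 : g' = g := Φ.injective h6
    rwa [← h7]

end Cfsg.Agent.Lib.Classical.C2.Main
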